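import Cfsg.Agent.Lib.ThreeT.F22.O8.Out.CsabO
import Cfsg.Agent.Lib.Core.Basic

/-!
# The subgroup `2⁶ : O₆⁻(2)` of `Fi₂₂`: the group `H`
-/

set_option autoImplicit false
set_option linter.style.haveILetI false
set_option linter.unusedSectionVars false
set_option linter.unusedVariables false
set_option linter.style.longLine false
set_option linter.unnecessarySimpa false
set_option maxRecDepth 1000000

namespace Cfsg.Agent.Lib.ThreeT.F22.O8.Out

open Cfsg Cfsg.Agent.Lib.TC.Core Cfsg.Agent.Lib.TC.Chain Cfsg.Agent.Lib.TC.Chain.PermLev Cfsg.Agent.Lib.TC.D.Fi22b.Tab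
  Cfsg.Agent.Lib.ThreeT.F22.Sift Cfsg.Agent.Lib.ThreeT.F22.Act Cfsg.Agent.Lib.ThreeT.F22.DPts
  Cfsg.Agent.Lib.ThreeT.F22.O8
open Cfsg.Agent.Lib.ThreeT.H1Orth Cfsg.Agent.Lib.Orth.Forms Cfsg.Agent.Lib.Orth.Refl Cfsg.Agent.Lib.Orth.Bridge
  Cfsg.Agent.Lib.Orth.Closure Cfsg.Agent.Lib.Witt.Quadratic QuadraticMap Matrix

/-- The 72 points. -/
def F72 : Set (Fin pt.n) := {p | p.1 ∈ F72L}

/-- The hypotheses on `H`. -/
structure HD (H : Subgroup Γ) : Prop where
  h1 : ∀ g ∈ H, ∀ p, p ∈ F72 → phi g p ∈ F72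
  h2 : ∀ p ∈ F72, dp p ∈ H

theorem F72L_lt {x : Nat} (hx : x ∈ F72L) : x < 3510 := by
  simp only [F72L, List.mem_flatMap, List.mem_cons, List.not_mem_nil, or_false] at hx
  obtain ⟨q, hq, rfl | rfl⟩ := hx
  · exact (prs_spec hq).1
  · exact (prs_spec hq).2.1

theorem mem_F72L_left {q : Nat × Nat × Nat} (hq : q ∈ prs) : q.1 ∈ F72L := by
  simp only [F72L, List.mem_flatMap, List.mem_cons, List.not_mem_nil, or_false]
  exact ⟨q, hq, Or.inl rfl⟩

theorem mem_F72L_right {q : Nat × Nat × Nat} (hq : q ∈ prs) : q.2.1 ∈ F72L := by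
  simp only [F72L, List.mem_flatMap, List.mem_cons, List.not_mem_nil, or_false]
  exact ⟨q, hq, Or.inr rfl⟩

theorem pN_mem_F72 {x : Nat} (hx : x ∈ F72L) : pN x ∈ F72 := by
  show (pN x).1 ∈ F72L
  rw [pN_val (F72L_lt hx)]
  exact hx

variable {H : Subgroup Γ} (hH : HD H)
include hH

theorem dn_mem_H {x : Nat} (hx : x ∈ F72L) : dn x ∈ H := hH.h2 _ (pN_mem_F72 hx)

theorem eE_mem_H {q : Nat × Nat × Nat} (hq : q ∈ prs) : eE q ∈ H :=
  H.mul_mem (dn_mem_H hH (mem_F72L_left hq)) (dn_mem_H hH (mem_F72L_right hq))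

theorem O_le_H : O ≤ H := by
  rw [O, Subgroup.closure_le]
  rintro _ ⟨q, hq, rfl⟩
  exact eE_mem_H hH hq

/-- The image of a point of the list under an element of `H`. -/
theorem phi_F72L {g : Γ} (hg : g ∈ H) {x : Nat} (hx : x ∈ F72L) : (phi g (pN x)).1 ∈ F72L :=
  hH.h1 g hg _ (pN_mem_F72 hx)

/-- `H` permutes the pairs. -/
theorem conj_pair {g : Γ} (hg : g ∈ H) {q : Nat × Nat × Nat} (hq : q ∈ prs) :
    ∃ q' ∈ prs, ((phi g (pN q.1)).1 = q'.1 ∧ (phi g (pN q.2.1)).1 = q'.2.1) ∨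
      ((phi g (pN q.1)).1 = q'.2.1 ∧ (phi g (pN q.2.1)).1 = q'.1) := by
  obtain ⟨hx, hy, -, -, hne⟩ := prs_spec hq
  have hxL := mem_F72L_left hq
  have hyL := mem_F72L_right hq
  set x' := (phi g (pN q.1)).1 with hx'
  set y' := (phi g (pN q.2.1)).1 with hy'
  have hx'L : x' ∈ F72L := phi_F72L hH hg hxL
  have hy'L : y' ∈ F72L := phi_F72L hH hg hyL
  have hsame := List.all_eq_true.1 chk_same q hq
  have hs : same x' y' = true := by
    apply List.all_eq_true.2
    intro w hw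
    have hwlt := F72L_lt hw
    -- the preimage of `w`
    have hz : (phi g⁻¹ (pN w)).1 ∈ F72L := hH.h1 g⁻¹ (H.inv_mem hg) _ (pN_mem_F72 hw)
    set z := (phi g⁻¹ (pN w)).1 with hzdef
    have hzlt := F72L_lt hz
    have e0 : pN z = phi g⁻¹ (pN w) := pN_coe _
    have e1 : phi g (pN z) = pN w := by
      rw [e0, ← Equiv.Perm.mul_apply, ← map_mul, mul_inv_cancel, map_one, Equiv.Perm.one_apply]
    have e2 : dn x' = dp (phi g (pN q.1)) := by rw [dn, hx', pN_coe]
    have e3 : dn y' = dp (phi g (pN q.2.1)) := by rw [dn, hy', pN_coe]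
    have e4 : dn w = dp (phi g (pN z)) := by rw [e1]; rfl
    have h3 := List.all_eq_true.1 hsame z hz
    have hlt1 := F72L_lt hx'L
    have hlt2 := F72L_lt hy'L
    have h4 : cmB x' w = cmB q.1 z := by
      apply Bool.eq_iff_iff.2
      rw [cmB_iff hlt1 hwlt, cmB_iff hx hzlt, e2, e4]
      exact comm_conj_iff' g _ _
    have h5 : cmB y' w = cmB q.2.1 z := by
      apply Bool.eq_iff_iff.2
      rw [cmB_iff hlt2 hwlt, cmB_iff hy hzlt, e3, e4]
      exact comm_conj_iff' g _ _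
    rw [h4, h5]
    exact h3
  have hpat := List.all_eq_true.1 (List.all_eq_true.1 chk_pat x' hx'L) y' hy'L
  rw [hs] at hpat
  simp only [Bool.not_true, Bool.false_or, Bool.or_eq_true] at hpat
  rcases hpat with h | h
  · exfalso
    have h3 : x' = y' := Nat.eq_of_beq_eq_true h
    have h4 : phi g (pN q.1) = phi g (pN q.2.1) := Fin.ext h3
    have h5 := (phi g).injective h4
    have h6 := congrArg Fin.val h5
    rw [pN_val hx, pN_val hy] at h6
    exact hne h6
  · obtain ⟨q', hq', h3⟩ := List.any_eq_true.1 h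
    refine ⟨q', hq', ?_⟩
    simp only [Bool.or_eq_true, Bool.and_eq_true] at h3
    rcases h3 with ⟨h4, h5⟩ | ⟨h4, h5⟩
    · exact Or.inl ⟨Nat.eq_of_beq_eq_true h4, Nat.eq_of_beq_eq_true h5⟩
    · exact Or.inr ⟨Nat.eq_of_beq_eq_true h4, Nat.eq_of_beq_eq_true h5⟩

omit hH in
theorem eE_conj_of {g : Γ} {q q' : Nat × Nat × Nat} (hq' : q' ∈ prs)
    (h : ((phi g (pN q.1)).1 = q'.1 ∧ (phi g (pN q.2.1)).1 = q'.2.1) ∨
      ((phi g (pN q.1)).1 = q'.2.1 ∧ (phi g (pN q.2.1)).1 = q'.1)) :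
    g * eE q * g⁻¹ = eE q' := by
  obtain ⟨h1, h2, -, -, -⟩ := prs_spec hq'
  have e3 : g * eE q * g⁻¹ = (g * dn q.1 * g⁻¹) * (g * dn q.2.1 * g⁻¹) := by
    rw [eE]
    group
  rw [e3]
  rcases h with ⟨h3, h4⟩ | ⟨h3, h4⟩
  · rw [dn_eq_of_phi h1 h3, dn_eq_of_phi h2 h4]
    rfl
  · rw [dn_eq_of_phi h2 h3, dn_eq_of_phi h1 h4]
    exact (comm_pair hq').eq.symm

theorem conj_eE {g : Γ} (hg : g ∈ H) {q : Nat × Nat × Nat} (hq : q ∈ prs) : ∃ q' ∈ prs, g * eE q * g⁻¹ = eE q' := by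
  obtain ⟨q', hq', h⟩ := conj_pair hH hg hq
  exact ⟨q', hq', eE_conj_of hq' h⟩

/-- `H` normalizes `O`. -/
theorem conj_O {g : Γ} (hg : g ∈ H) {o : Γ} (ho : o ∈ O) : g * o * g⁻¹ ∈ O := by
  refine Subgroup.closure_induction (p := fun o _ => g * o * g⁻¹ ∈ O) ?_ ?_ ?_ ?_ ho
  · rintro _ ⟨q, hq, rfl⟩
    obtain ⟨q', hq', h⟩ := conj_eE hH hg hq
    rw [h]
    exact eE_mem hq'
  · simp [O.one_mem]
  · intro a b _ _ h1 h2
    have e : g * (a * b) * g⁻¹ = (g * a * g⁻¹) * (g * b * g⁻¹) := by group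
    rw [e]
    exact O.mul_mem h1 h2
  · intro a _ h1
    have e : g * a⁻¹ * g⁻¹ = (g * a * g⁻¹)⁻¹ := by group
    rw [e]
    exact O.inv_mem h1

theorem normal_O : (O.subgroupOf H).Normal := by
  constructor
  intro n hn g
  show g.1 * n.1 * g.1⁻¹ ∈ O
  exact conj_O hH g.2 hn

/-- Conjugation on `O`. -/
noncomputable def conjO (g : H) : O →* O where
  toFun o := ⟨g.1 * o.1 * g.1⁻¹, conj_O hH g.2 o.2⟩
  map_one' := Subtype.ext (by simp)
  map_mul' x y := Subtype.ext (by
    show g.1 * (x.1 * y.1) * g.1⁻¹ = (g.1 * x.1 * g.1⁻¹) * (g.1 * y.1 * g.1⁻¹)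
    group)

@[simp] theorem conjO_val (g : H) (o : O) : (conjO hH g o).1 = g.1 * o.1 * g.1⁻¹ := rfl

/-- The additive map on the vectors. -/
noncomputable def Lfun (g : H) (v : V6) : V6 := kv (conjO hH g (kvE.symm v))

theorem Lfun_kv (g : H) (o : O) : Lfun hH g (kv o) = kv (conjO hH g o) := by
  have h : kvE.symm (kv o) = o := kvE.symm_apply_apply o
  rw [Lfun, h]

theorem Lfun_add (g : H) (a b : V6) : Lfun hH g (a + b) = Lfun hH g a + Lfun hH g b := by
  obtain ⟨x, rfl⟩ := kv_surj a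
  obtain ⟨y, rfl⟩ := kv_surj b
  rw [← kv_mul, Lfun_kv, Lfun_kv, Lfun_kv, map_mul, kv_mul]

/-- The linear map on the vectors. -/
noncomputable def Llin (g : H) : V6 →ₗ[ZMod 2] V6 :=
  (AddMonoidHom.mk' (Lfun hH g) (Lfun_add hH g)).toZModLinearMap 2

theorem Llin_kv (g : H) (o : O) : Llin hH g (kv o) = kv (conjO hH g o) := Lfun_kv hH g o

theorem Llin_mul (g h : H) (v : V6) : Llin hH (g * h) v = Llin hH g (Llin hH h v) := by
  obtain ⟨o, rfl⟩ := kv_surj v
  rw [Llin_kv, Llin_kv, Llin_kv]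
  congr 1
  apply Subtype.ext
  show (g.1 * h.1) * o.1 * (g.1 * h.1)⁻¹ = g.1 * (h.1 * o.1 * h.1⁻¹) * g.1⁻¹
  group

theorem Llin_one (v : V6) : Llin hH 1 v = v := by
  obtain ⟨o, rfl⟩ := kv_surj v
  rw [Llin_kv]
  congr 1
  apply Subtype.ext
  show (1 : Γ) * o.1 * (1 : Γ)⁻¹ = o.1
  group

/-- The linear automorphism. -/
noncomputable def Leq (g : H) : V6 ≃ₗ[ZMod 2] V6 :=
  LinearEquiv.ofLinear (Llin hH g) (Llin hH g⁻¹)
    (by
      apply LinearMap.ext
      intro v
      show Llin hH g (Llin hH g⁻¹ v) = v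
      rw [← Llin_mul, mul_inv_cancel, Llin_one])
    (by
      apply LinearMap.ext
      intro v
      show Llin hH g⁻¹ (Llin hH g v) = v
      rw [← Llin_mul, inv_mul_cancel, Llin_one])

theorem Leq_apply (g : H) (v : V6) : Leq hH g v = Llin hH g v := rfl

/-- The isometries. -/
theorem Leq_mem (g : H) : Leq hH g ∈ isoGroup Q6 := by
  intro v
  obtain ⟨o, rfl⟩ := kv_surj v
  rw [Leq_apply, Llin_kv, kv, kv, Q_dw6 _ (cod_lt _), Q_dw6 _ (cod_lt _)]
  have key : q6 (cod (conjO hH g o)) = true ↔ q6 (cod o) = true := by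
    rw [q6_iff, q6_iff]
    constructor
    · rintro ⟨q, hq, h⟩
      obtain ⟨q', hq', h2⟩ := conj_eE hH (H.inv_mem g.2) hq
      refine ⟨q', hq', ?_⟩
      rw [← h2, ← h, conjO_val]
      group
    · rintro ⟨q, hq, h⟩
      obtain ⟨q', hq', h2⟩ := conj_eE hH g.2 hq
      refine ⟨q', hq', ?_⟩
      rw [← h2, conjO_val, h]
  by_cases h : q6 (cod o) = true
  · rw [if_pos h, if_pos (key.2 h)]
  · rw [if_neg h, if_neg (fun h3 => h (key.1 h3))]

/-- The homomorphism to the isometry group. -/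
noncomputable def Fhom : H →* isometryGroup (ZMod 2) (⇑Q6) :=
  (toIso Q6).symm.toMonoidHom.comp
    { toFun := fun g => ⟨Leq hH g, Leq_mem hH g⟩
      map_one' := by
        apply Subtype.ext
        apply LinearEquiv.ext
        intro v
        exact Llin_one hH v
      map_mul' := fun g h => by
        apply Subtype.ext
        apply LinearEquiv.ext
        intro v
        exact Llin_mul hH g h v }

theorem Fhom_eq_one_iff (g : H) : Fhom hH g = 1 ↔ ∀ o : O, Commute g.1 o.1 := by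
  have h1 : Fhom hH g = 1 ↔ (⟨Leq hH g, Leq_mem hH g⟩ : isoGroup Q6) = 1 := by
    show (toIso Q6).symm _ = 1 ↔ _
    rw [MulEquiv.map_eq_one_iff]
    rfl
  rw [h1]
  constructor
  · intro h o
    have h2 : Leq hH g = 1 := congrArg Subtype.val h
    have h3 : Leq hH g (kv o) = kv o := by
      rw [h2]
      rfl
    rw [Leq_apply, Llin_kv] at h3
    have h4 := congrArg Subtype.val (kv_inj h3)
    have h5 : g.1 * o.1 * g.1⁻¹ = o.1 := h4
    exact mul_inv_eq_iff_eq_mul.mp h5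
  · intro h
    apply Subtype.ext
    apply LinearEquiv.ext
    intro v
    obtain ⟨o, rfl⟩ := kv_surj v
    show Leq hH g (kv o) = kv o
    rw [Leq_apply, Llin_kv]
    congr 1
    apply Subtype.ext
    show g.1 * o.1 * g.1⁻¹ = o.1
    exact mul_inv_eq_iff_eq_mul.mpr (h o).eq

theorem Fhom_ker : (Fhom hH).ker = O.subgroupOf H := by
  ext g
  rw [MonoidHom.mem_ker, Fhom_eq_one_iff]
  constructor
  · intro h
    refine cent_O (fun q hq => ?_)
    exact h ⟨eE q, eE_mem hq⟩
  · intro h o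
    exact O_comm h o.2

omit hH in
theorem refl_q {c d : Nat} (hc : c < 64) (hq : q6 c = true) (hd : d < 64) :
    refl Q6 (dw6 c) (dw6 d) = dw6 (tf6 c d) := by
  rw [dw6, dw6, refl_dec idx6 Q6 (Q6_ne hc hq) d]
  congr 1
  have hx : d ^^^ c < 64 := by
    have := Nat.xor_lt_two_pow (n := 6) (by simpa using hd) (by simpa using hc)
    simpa using this
  unfold tn tf6 eqb xor
  show (if Q6 (dw6 (d ^^^ c)) = Q6 (dw6 d) + Q6 (dw6 c) then d else d ^^^ c) = _
  rw [Q_dw6 _ hx, Q_dw6 _ hd, Q_dw6 _ hc]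
  generalize q6 (d ^^^ c) = b1
  generalize q6 d = b2
  generalize q6 c = b3
  cases b1 <;> cases b2 <;> cases b3 <;> first | exact if_pos (by decide) | exact if_neg (by decide)

/-- The member at a point of a pair acts as the reflection. -/
theorem Leq_refl {q : Nat × Nat × Nat} (hq : q ∈ prs) :
    Leq hH ⟨dn q.1, dn_mem_H hH (mem_F72L_left hq)⟩ = refl Q6 (dw6 q.2.2) := by
  obtain ⟨ha, hb, hc, hqq, -⟩ := prs_spec hq
  apply LinearEquiv.ext
  intro v
  obtain ⟨o, rfl⟩ := kv_surj v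
  obtain ⟨o, ho⟩ := o
  refine Subgroup.closure_induction (p := fun o ho =>
    Leq hH ⟨dn q.1, dn_mem_H hH (mem_F72L_left hq)⟩ (kv ⟨o, ho⟩) = refl Q6 (dw6 q.2.2) (kv ⟨o, ho⟩)) ?_ ?_ ?_ ?_ ho
  · rintro _ ⟨q', hq', rfl⟩
    rw [Leq_apply, Llin_kv]
    have h0 : kv ⟨eE q', Subgroup.subset_closure ⟨q', hq', rfl⟩⟩ = dw6 q'.2.2 := by
      rw [kv]
      congr 1
      exact cod_eE hq'
    rw [h0, refl_q hc hqq (prs_spec hq').2.2.1, kv]
    congr 1
    apply cod_eq
    obtain ⟨ha', hb', -, -, -⟩ := prs_spec hq'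
    have h1 := List.all_eq_true.1 (List.all_eq_true.1 chk_refl q hq) q' hq'
    rw [pt.walk_eq] at h1
    have h2 := memT_spec h1
    -- the word
    have hw : ∀ z ∈ dW q.1 ++ dW q'.2.1 ++ dW q'.1 ++ dW q.1, z < pt.k := by
      intro z hz
      simp only [List.mem_append] at hz
      rcases hz with ((hz | hz) | hz) | hz
      · exact dW_lt ha z hz
      · exact dW_lt hb' z hz
      · exact dW_lt ha' z hz
      · exact dW_lt ha z hz
    have hwv : wv (dW q.1 ++ dW q'.2.1 ++ dW q'.1 ++ dW q.1) = dn q.1 * eE q' * (dn q.1)⁻¹ := by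
      simp only [wv_append, wv_dW ha, wv_dW ha', wv_dW hb', dn_inv, eE]
      group
    have h3 := phi_wv_pN hw (y := 2) (by decide)
    rw [hwv] at h3
    show Tr (phi (dn q.1 * eE q' * (dn q.1)⁻¹) (pN 2)).1 _
    rw [h3, pN_val (val_lt hw (by decide))]
    exact h2
  · have e : (⟨1, O.one_mem⟩ : O) = 1 := rfl
    rw [e, kv_one, map_zero, map_zero]
  · intro a b ha hb h1 h2
    have e : (⟨a * b, O.mul_mem ha hb⟩ : O) = ⟨a, ha⟩ * ⟨b, hb⟩ := rfl
    rw [e, kv_mul, map_add, map_add, h1, h2]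
  · intro a ha h1
    have e : (⟨a⁻¹, O.inv_mem ha⟩ : O) = ⟨a, ha⟩ := Subtype.ext (O_inv ha)
    rw [e]
    exact h1

theorem Fhom_surj : Function.Surjective (Fhom hH) := by
  rw [← MonoidHom.range_eq_top, eq_top_iff, ← closure_refl_eq_top Q6 hQ6 (Or.inr (by simp)), Subgroup.closure_le]
  rintro g ⟨v, hv, hg⟩
  obtain ⟨c, hc, rfl⟩ := dw6_surj v
  have hq6 := q6_of_Q hc hv
  have h1 := List.all_eq_true.1 chk_Qcover c (List.mem_range.2 hc)
  rw [hq6] at h1
  simp only [Bool.not_true, Bool.false_or, List.any_eq_true] at h1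
  obtain ⟨q, hq, h2⟩ := h1
  have h3 : q.2.2 = c := Nat.eq_of_beq_eq_true h2
  subst h3
  refine ⟨⟨dn q.1, dn_mem_H hH (mem_F72L_left hq)⟩, ?_⟩
  have e1 : g = reflEl Q6 (dw6 q.2.2) := Subtype.ext (Units.ext (hg.trans (reflEl_val Q6 _).symm))
  rw [e1]
  show (toIso Q6).symm _ = (toIso Q6).symm _
  congr 1
  exact Subtype.ext (Leq_refl hH hq)

/-! ### The largest normal `2`-subgroup -/

omit hH in
theorem cube_one {s u : Nat} (hs : s ∈ F72L) (hu : u ∈ F72L) (h : ¬ Commute (dn s) (dn u)) :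
    (dn s * dn u) ^ 3 = 1 := by
  have hslt := F72L_lt hs
  have hult := F72L_lt hu
  have h1 := List.all_eq_true.1 (List.all_eq_true.1 chk_three s hs) u hu
  rw [pt.walk_eq, pt.walk_eq] at h1
  simp only [Bool.or_eq_true] at h1
  rcases h1 with h1 | h1
  · exact absurd ((cmB_iff hslt hult).1 h1) h
  · have h2 := Nat.eq_of_beq_eq_true h1
    have h3 : dn s * dn u * (dn s)⁻¹ = dn (pt.val (dW s) u) := by
      apply dn_eq_of_phi (val_lt (dW_lt hslt) hult)
      rw [← wv_dW hslt, phi_wv_pN (dW_lt hslt) hult, pN_val (val_lt (dW_lt hslt) hult)]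
    have h4 : dn u * dn s * (dn u)⁻¹ = dn (pt.val (dW u) s) := by
      apply dn_eq_of_phi (val_lt (dW_lt hult) hslt)
      rw [← wv_dW hult, phi_wv_pN (dW_lt hult) hslt, pN_val (val_lt (dW_lt hult) hslt)]
    rw [dn_inv] at h3 h4
    rw [← h2] at h4
    calc (dn s * dn u) ^ 3 = (dn s * dn u * dn s) * (dn u * dn s * dn u) := by
          rw [pow_succ, pow_two]
          group
      _ = dn (pt.val (dW s) u) * dn (pt.val (dW s) u) := by rw [h3, h4]
      _ = 1 := dn_sq _

omit hH in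
/-- An element of a `2`-group of cube one is trivial. -/
theorem eq_one_of_cube {P : Subgroup Γ} (hP : IsPGroup 2 P) {t : Γ} (ht : t ∈ P) (h3 : t ^ 3 = 1) : t = 1 := by
  obtain ⟨k, hk⟩ := hP ⟨t, ht⟩
  have h1 : t ^ 2 ^ k = 1 := congrArg Subtype.val hk
  have h2 := pow_gcd_eq_one.mpr ⟨h3, h1⟩
  have h4 : Nat.gcd 3 (2 ^ k) = 1 := Nat.Coprime.pow_right _ (by decide)
  rwa [h4, pow_one] at h2

omit hH in
theorem not_comm_of {s u : Nat} (hs : s ∈ F72L) (hu : u ∈ F72L) (h : ¬ Commute (dn s) (dn u))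
    {P : Subgroup Γ} (hP : IsPGroup 2 P) (ht : (dn s * dn u) * (dn s * dn u) ∈ P) : False := by
  have h1 := cube_one hs hu h
  have h2 : ((dn s * dn u) * (dn s * dn u)) ^ 3 = 1 := by
    rw [← pow_two, ← pow_mul, mul_comm, pow_mul, h1, one_pow]
  have h3 := eq_one_of_cube hP ht h2
  have h4 : dn s * dn u = 1 := by
    calc dn s * dn u = (dn s * dn u) ^ 3 * ((dn s * dn u) * (dn s * dn u))⁻¹ := by
          rw [pow_succ, pow_two]
          group
      _ = 1 := by rw [h1, h3]; simp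
  apply h
  have h5 : dn s = dn u := by
    have := dn_sq u
    calc dn s = dn s * (dn u * dn u) := by rw [this, mul_one]
      _ = (dn s * dn u) * dn u := by group
      _ = dn u := by rw [h4, one_mul]
  rw [h5]

/-- Nothing outside the commuting pattern. -/
theorem three_step {P : Subgroup Γ} (hP : IsPGroup 2 P) (hPH : P ≤ H)
    (hPn : ∀ g ∈ H, ∀ x ∈ P, g * x * g⁻¹ ∈ P) {s t u : Nat} (hs : s ∈ F72L) (ht : t ∈ F72L) (hu : u ∈ F72L)
    (hst : dn s * dn t ∈ P) (hcst : Commute (dn s) (dn t)) (htu : Commute (dn t) (dn u))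
    (hsu : ¬ Commute (dn s) (dn u)) : False := by
  refine not_comm_of hs hu hsu hP ?_
  have h1 := hPn _ (dn_mem_H hH hu) _ hst
  have h2 := P.mul_mem hst h1
  have e : dn s * dn t * (dn u * (dn s * dn t) * (dn u)⁻¹) = (dn s * dn u) * (dn s * dn u) := by
    rw [dn_inv]
    have e1 : dn u * dn t = dn t * dn u := htu.eq.symm
    have e2 : dn s * dn t = dn t * dn s := hcst.eq
    calc dn s * dn t * (dn u * (dn s * dn t) * dn u)
        = dn s * (dn t * dn u) * dn s * (dn t * dn u) := by group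
      _ = dn s * (dn u * dn t) * dn s * (dn u * dn t) := by rw [e1]
      _ = dn s * dn u * (dn t * dn s) * dn u * dn t := by group
      _ = dn s * dn u * (dn s * dn t) * dn u * dn t := by rw [e2]
      _ = dn s * dn u * dn s * (dn t * dn u) * dn t := by group
      _ = dn s * dn u * dn s * (dn u * dn t) * dn t := by rw [e1]
      _ = dn s * dn u * dn s * dn u * (dn t * dn t) := by group
      _ = (dn s * dn u) * (dn s * dn u) := by rw [dn_sq, mul_one]; group
  rw [e] at h2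
  exact h2

/-- A normal `2`-subgroup of `H` lies in `O`. -/
theorem le_O {P : Subgroup Γ} (hP : IsPGroup 2 P) (hPH : P ≤ H)
    (hPn : ∀ g ∈ H, ∀ x ∈ P, g * x * g⁻¹ ∈ P) : P ≤ O := by
  intro p hp
  refine cent_O (fun q hq => ?_)
  by_contra hne
  have hpH := hPH hp
  obtain ⟨q', hq', hpair⟩ := conj_pair hH hpH hq
  have hqq : q' ≠ q := by
    rintro rfl
    apply hne
    have := eE_conj_of hq' hpair
    exact mul_inv_eq_iff_eq_mul.mp this
  obtain ⟨hx, hy, -, -, hxy⟩ := prs_spec hq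
  have hxL := mem_F72L_left hq
  have hyL := mem_F72L_right hq
  -- the image `w` of `x`
  set w := (phi p (pN q.1)).1 with hw
  have hwL : w ∈ F72L := phi_F72L hH hpH hxL
  have hwlt := F72L_lt hwL
  have hdisj : w ≠ q.1 ∧ w ≠ q.2.1 := by
    have hu := List.all_eq_true.1 (List.all_eq_true.1 chk_uniq q hq) q' hq'
    simp only [Bool.or_eq_true, Bool.and_eq_true, Bool.not_eq_true'] at hu
    have hmem : w = q'.1 ∨ w = q'.2.1 := by
      rcases hpair with ⟨h3, -⟩ | ⟨h3, -⟩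
      · exact Or.inl h3
      · exact Or.inr h3
    have hnot : ¬ (q.1 = q'.1 ∧ q.2.1 = q'.2.1) := by
      rintro ⟨h3, h4⟩
      -- then the pair is preserved
      apply hne
      have e0 : eE q' = eE q := by rw [eE, eE, h3, h4]
      have := eE_conj_of hq' hpair
      rw [e0] at this
      exact mul_inv_eq_iff_eq_mul.mp this
    have hfalse : (Nat.beq q.1 q'.1 && Nat.beq q.2.1 q'.2.1) = false := by
      cases h3 : Nat.beq q.1 q'.1
      · rfl
      · cases h4 : Nat.beq q.2.1 q'.2.1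
        · rfl
        · exact absurd ⟨Nat.eq_of_beq_eq_true h3, Nat.eq_of_beq_eq_true h4⟩ hnot
    have hu2 := List.all_eq_true.1 (List.all_eq_true.1 chk_uniq q hq) q' hq'
    rw [hfalse, Bool.or_false] at hu2
    simp only [Bool.not_eq_true', Bool.or_eq_false_iff] at hu2
    obtain ⟨⟨⟨h5, h6⟩, h7⟩, h8⟩ := hu2
    have hb : ∀ a b : Nat, Nat.beq a b = false → a ≠ b := by
      intro a b h c
      rw [c] at h
      simp at h
    rcases hmem with h3 | h3 <;> rw [h3]
    · exact ⟨fun e => hb _ _ h5 e.symm, fun e => hb _ _ h7 e.symm⟩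
    · exact ⟨fun e => hb _ _ h6 e.symm, fun e => hb _ _ h8 e.symm⟩
  -- the commutator is in `P`
  have hwP : dn q.1 * dn w ∈ P := by
    have h1 := hPn _ (dn_mem_H hH hxL) _ hp
    have h2 := P.mul_mem h1 (P.inv_mem hp)
    have e1 : p * dn q.1 * p⁻¹ = dn w := dn_eq_of_phi hwlt rfl
    have e2 : dn q.1 * p * (dn q.1)⁻¹ * p⁻¹ = dn q.1 * (p * dn q.1 * p⁻¹) := by
      rw [dn_inv]
      group
    rw [e2, e1] at h2
    exact h2
  -- they commute
  have hcomm : Commute (dn q.1) (dn w) := by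
    by_contra hc
    have h3 := cube_one hxL hwL hc
    have h4 := eq_one_of_cube hP hwP h3
    apply hc
    have h5 : dn q.1 = dn w := by
      calc dn q.1 = dn q.1 * (dn w * dn w) := by rw [dn_sq, mul_one]
        _ = (dn q.1 * dn w) * dn w := by group
        _ = dn w := by rw [h4, one_mul]
    rw [h5]
  -- the patterns differ
  have hns : same q.1 w = false := by
    by_contra hs
    have hs2 : same q.1 w = true := by simpa using hs
    have hpat := List.all_eq_true.1 (List.all_eq_true.1 chk_pat q.1 hxL) w hwL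
    rw [hs2] at hpat
    simp only [Bool.not_true, Bool.false_or, Bool.or_eq_true] at hpat
    rcases hpat with h | h
    · exact hdisj.1 (Nat.eq_of_beq_eq_true h).symm
    · obtain ⟨q₂, hq₂, h3⟩ := List.any_eq_true.1 h
      simp only [Bool.or_eq_true, Bool.and_eq_true] at h3
      have hq₂q : q₂.1 = q.1 ∨ q₂.2.1 = q.1 := by
        rcases h3 with ⟨h4, -⟩ | ⟨h4, -⟩
        · exact Or.inl (Nat.eq_of_beq_eq_true h4).symm
        · exact Or.inr (Nat.eq_of_beq_eq_true h4).symm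
      have hu := List.all_eq_true.1 (List.all_eq_true.1 chk_uniq q hq) q₂ hq₂
      have hb1 : (Nat.beq q.1 q₂.1 || Nat.beq q.1 q₂.2.1 || Nat.beq q.2.1 q₂.1 || Nat.beq q.2.1 q₂.2.1) = true := by
        rcases hq₂q with h4 | h4
        · simp [h4]
        · simp [h4]
      rw [hb1] at hu
      simp only [Bool.not_true, Bool.false_or, Bool.and_eq_true] at hu
      have h5 := Nat.eq_of_beq_eq_true hu.1
      have h6 := Nat.eq_of_beq_eq_true hu.2
      rcases h3 with ⟨h7, h8⟩ | ⟨h7, h8⟩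
      · exact hdisj.2 ((Nat.eq_of_beq_eq_true h8).trans h6.symm)
      · have h9 := Nat.eq_of_beq_eq_true h7
        have h10 := Nat.eq_of_beq_eq_true h8
        exact hxy (by
          have : q.1 = q.2.1 := by rw [h9, ← h6]
          exact this)
  -- a point distinguishing them
  have hex : ∃ u ∈ F72L, cmB q.1 u ≠ cmB w u := by
    by_contra hcon
    push Not at hcon
    have : same q.1 w = true := by
      apply List.all_eq_true.2
      intro z hz
      rw [hcon z hz]
      cases cmB w z <;> rfl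
    rw [this] at hns
    exact absurd hns (by simp)
  obtain ⟨u, huL, hu⟩ := hex
  have hult := F72L_lt huL
  cases h3 : cmB q.1 u with
  | true =>
    have h4 : cmB w u = false := by
      rw [h3] at hu
      cases h5 : cmB w u
      · rfl
      · rw [h5] at hu
        exact absurd rfl hu
    have h5 : Commute (dn q.1) (dn u) := (cmB_iff hx hult).1 h3
    have h6 : ¬ Commute (dn w) (dn u) := by
      intro h7
      have := (cmB_iff hwlt hult).2 h7
      rw [h4] at this
      exact absurd this (by simp)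
    refine three_step hH hP hPH hPn hwL hxL huL ?_ hcomm.symm h5 h6
    rw [hcomm.eq.symm]
    exact hwP
  | false =>
    have h4 : cmB w u = true := by
      rw [h3] at hu
      cases h5 : cmB w u
      · rw [h5] at hu
        exact absurd rfl hu
      · rfl
    have h5 : Commute (dn w) (dn u) := (cmB_iff hwlt hult).1 h4
    have h6 : ¬ Commute (dn q.1) (dn u) := by
      intro h7
      have := (cmB_iff hx hult).2 h7
      rw [h3] at this
      exact absurd this (by simp)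
    exact three_step hH hP hPH hPn hxL hwL huL hwP hcomm h5 h6

/-- `O` is the largest normal `2`-subgroup. -/
theorem O_eq_pCore : O = (pCore 2 ↥H).map H.subtype := by
  haveI : Fact (Nat.Prime 2) := ⟨Nat.prime_two⟩
  haveI hn : (O.subgroupOf H).Normal := normal_O hH
  apply le_antisymm
  · intro o ho
    have h1 : O.subgroupOf H ≤ pCore 2 ↥H := by
      apply Cfsg.Agent.Lib.Core.Basic.le_pCore hn
      apply IsPGroup.of_card (n := 6)
      have h2 : Nat.card (O.subgroupOf H) = Nat.card O := by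
        exact Nat.card_congr (Subgroup.subgroupOfEquivOfLe (O_le_H hH)).toEquiv
      rw [h2, card_O]
      norm_num
    exact ⟨⟨o, O_le_H hH ho⟩, h1 ho, rfl⟩
  · apply le_O hH
    · exact (Cfsg.Agent.Lib.Core.Basic.pCore_isPGroup).map _
    · exact Subgroup.map_subtype_le _
    · rintro g hg _ ⟨x, hx, rfl⟩
      have h1 : (⟨g, hg⟩ : H) * x * (⟨g, hg⟩ : H)⁻¹ ∈ pCore 2 ↥H := by
        have h3 : (pCore 2 ↥H).Normal := inferInstance
        exact h3.conj_mem x hx _
      exact ⟨_, h1, rfl⟩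

/-- **The subgroup `2⁶ : O₆⁻(2)`.** -/
theorem csab_main : IsElementaryAbelian 2 O ∧ Nat.card O = 64 ∧ O = (pCore 2 ↥H).map H.subtype ∧
    ∃ _ : (O.subgroupOf H).Normal,
      Nonempty (↥H ⧸ O.subgroupOf H ≃* isometryGroup (ZMod 2) (quadFormMinus 2 (ZMod 2) 1 1)) := by
  refine ⟨O_elem, card_O, O_eq_pCore hH, normal_O hH, ?_⟩
  haveI hn : (O.subgroupOf H).Normal := normal_O hH
  haveI hk : (Fhom hH).ker.Normal := inferInstance
  exact ⟨(QuotientGroup.quotientMulEquivOfEq (Fhom_ker hH).symm).trans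
    (QuotientGroup.quotientKerEquivOfSurjective (Fhom hH) (Fhom_surj hH))⟩

end Cfsg.Agent.Lib.ThreeT.F22.O8.Out
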