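import Cfsg.Agent.Lib.ThreeT.F22.O8.Out.CsabData
import Cfsg.Prelude.Def_Transfer

/-!
# The subgroup `2⁶ : O₆⁻(2)` of `Fi₂₂`

`H` preserves a set of 72 points forming 36 pairs and contains the members of the class at these points.
The products of the pairs generate `O = O₂(H)`, elementary abelian of order 64, and `H / O` is the full
isometry group of the elliptic form.
-/

set_option autoImplicit false
set_option linter.style.haveILetI false
set_option linter.unusedSectionVars false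
set_option linter.unusedVariables false
set_option linter.style.longLine false
set_option linter.unnecessarySimpa false
set_option maxRecDepth 1000000

namespace Cfsg.Agent.Lib.ThreeT.F22.O8.Out

open Cfsg Cfsg.Agent.Lib.TC.Core Cfsg.Agent.Lib.TC.Chain Cfsg.Agent.Lib.TC.Chain.PermLev Cfsg.Agent.Lib.TC.D.Fi22b.Tab
  Cfsg.Agent.Lib.ThreeT.F22.Sift Cfsg.Agent.Lib.ThreeT.F22.Act Cfsg.Agent.Lib.ThreeT.F22.DPts
  Cfsg.Agent.Lib.ThreeT.F22.O8
open Cfsg.Agent.Lib.ThreeT.H1Orth Cfsg.Agent.Lib.Orth.Forms Cfsg.Agent.Lib.Orth.Refl Cfsg.Agent.Lib.Orth.Bridge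
  Cfsg.Agent.Lib.Orth.Closure Cfsg.Agent.Lib.Witt.Quadratic QuadraticMap Matrix

/-! ### Points and words -/

/-- The point of a number. -/
def pN (x : Nat) : Fin pt.n := ⟨x % 3510, Nat.mod_lt _ (by decide)⟩

theorem pN_val {x : Nat} (hx : x < 3510) : (pN x).1 = x := Nat.mod_eq_of_lt hx

theorem pN_coe (p : Fin pt.n) : pN p.1 = p := Fin.ext (pN_val p.2)

/-- The member of the class at a number. -/
noncomputable def dn (x : Nat) : Γ := dp (pN x)

theorem ptw_spec {p : Nat} (hp : p < 3510) : pt.val (ptw p) 0 = p ∧ ∀ z ∈ ptw p, z < pt.k := by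
  have h := List.all_eq_true.1 chk_ptw p (List.mem_range.2 hp)
  simp only [Bool.and_eq_true] at h
  refine ⟨Nat.eq_of_beq_eq_true h.1, fun z hz => ?_⟩
  have h3 := List.all_eq_true.1 h.2 z hz
  have h4 : z < 9 := by simpa [Nat.blt] using h3
  exact h4

theorem dW_lt {x : Nat} (hx : x < 3510) : ∀ z ∈ dW x, z < pt.k := by
  intro z hz
  rw [dW_eq] at hz
  simp only [tw, List.mem_append, List.mem_reverse, List.mem_singleton] at hz
  rcases hz with (hz | rfl) | hz
  · exact (ptw_spec hx).2 z hz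
  · decide +kernel
  · exact (ptw_spec hx).2 z hz

theorem wv_dW {x : Nat} (hx : x < 3510) : wv (dW x) = dn x := by
  rw [dW_eq]
  exact wv_tw_dp (ptw_spec hx).2 (by rw [(ptw_spec hx).1, pN_val hx])

/-- Words on numbered points. -/
theorem phi_wv_pN {w : List Nat} (hw : ∀ z ∈ w, z < pt.k) {y : Nat} (hy : y < 3510) :
    phi (wv w) (pN y) = pN (pt.val w y) := by
  have h := phi_val hw (pN y)
  rw [pN_val hy] at h
  rw [← h, pN_coe]

theorem val_lt {w : List Nat} (hw : ∀ z ∈ w, z < pt.k) {y : Nat} (hy : y < 3510) : pt.val w y < 3510 := by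
  have h := phi_val hw (pN y)
  rw [pN_val hy] at h
  rw [← h]
  exact (phi (wv w) (pN y)).2

theorem comm_iff_phi (c : Γ) {z : Nat} : Commute c (dn z) ↔ phi c (pN z) = pN z := comm_dp_iff c (pN z)

theorem dn_sq (x : Nat) : dn x * dn x = 1 := dp_sq _

theorem dn_inv (x : Nat) : (dn x)⁻¹ = dn x := dp_inv _

theorem comm_walk {x z : Nat} (hx : x < 3510) (hz : z < 3510) : cmB x z = Nat.beq (pt.val (dW x) z) z := by
  rw [cmB, pt.walk_eq]

theorem cmB_iff {x z : Nat} (hx : x < 3510) (hz : z < 3510) : cmB x z = true ↔ Commute (dn x) (dn z) := by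
  rw [comm_walk hx hz, comm_iff_phi, ← wv_dW hx, phi_wv_pN (dW_lt hx) hz]
  constructor
  · intro h
    rw [Nat.eq_of_beq_eq_true h]
  · intro h
    have h1 := congrArg Fin.val h
    rw [pN_val (val_lt (dW_lt hx) hz), pN_val hz] at h1
    rw [h1]
    simp

theorem comm_conj_iff' (g : Γ) (x y : Nat) :
    Commute (dp (phi g (pN x))) (dp (phi g (pN y))) ↔ Commute (dn x) (dn y) := by
  rw [← conj_dp, ← conj_dp]
  constructor
  · intro h
    have h1 : g * (dp (pN x) * dp (pN y)) * g⁻¹ = g * (dp (pN y) * dp (pN x)) * g⁻¹ := by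
      calc g * (dp (pN x) * dp (pN y)) * g⁻¹ = (g * dp (pN x) * g⁻¹) * (g * dp (pN y) * g⁻¹) := by group
        _ = (g * dp (pN y) * g⁻¹) * (g * dp (pN x) * g⁻¹) := h.eq
        _ = _ := by group
    exact mul_left_cancel (mul_right_cancel h1)
  · intro h
    have h2 : dp (pN x) * dp (pN y) = dp (pN y) * dp (pN x) := h.eq
    show (g * dp (pN x) * g⁻¹) * (g * dp (pN y) * g⁻¹) = (g * dp (pN y) * g⁻¹) * (g * dp (pN x) * g⁻¹)
    calc (g * dp (pN x) * g⁻¹) * (g * dp (pN y) * g⁻¹) = g * (dp (pN x) * dp (pN y)) * g⁻¹ := by group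
      _ = g * (dp (pN y) * dp (pN x)) * g⁻¹ := by rw [h2]
      _ = _ := by group

/-! ### The pairs -/

theorem prs_spec {q : Nat × Nat × Nat} (hq : q ∈ prs) :
    q.1 < 3510 ∧ q.2.1 < 3510 ∧ q.2.2 < 64 ∧ q6 q.2.2 = true ∧ q.1 ≠ q.2.1 := by
  have h := List.all_eq_true.1 chk_prs q hq
  simp only [Bool.and_eq_true, Bool.not_eq_true'] at h
  obtain ⟨⟨⟨⟨h1, h2⟩, h3⟩, h4⟩, h5⟩ := h
  refine ⟨by simpa [Nat.blt] using h1, by simpa [Nat.blt] using h2, by simpa [Nat.blt] using h3, h4, ?_⟩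
  intro h6
  rw [h6] at h5
  simp at h5

theorem getD_mem {i : Nat} (hi : i < 36) : prs.getD i (0, 0, 0) ∈ prs := by
  have h : i < prs.length := by rw [chk_len]; exact hi
  rw [List.getD_eq_getElem _ _ h]
  exact List.getElem_mem h

/-- The product of a pair. -/
noncomputable def eE (q : Nat × Nat × Nat) : Γ := dn q.1 * dn q.2.1

/-- The subgroup generated by the products of the pairs. -/
noncomputable def O : Subgroup Γ := Subgroup.closure {g | ∃ q ∈ prs, g = eE q}

theorem eE_mem {q : Nat × Nat × Nat} (hq : q ∈ prs) : eE q ∈ O := Subgroup.subset_closure ⟨q, hq, rfl⟩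

theorem comm_pair {q : Nat × Nat × Nat} (hq : q ∈ prs) : Commute (dn q.1) (dn q.2.1) :=
  (cmB_iff (prs_spec hq).1 (prs_spec hq).2.1).1 (List.all_eq_true.1 chk_pair_comm q hq)

theorem eW_lt {a b : Nat} (ha : a < 3510) (hb : b < 3510) : ∀ z ∈ eW a b, z < pt.k := by
  intro z hz
  rcases List.mem_append.1 hz with hz | hz
  · exact dW_lt hb z hz
  · exact dW_lt ha z hz

theorem wv_eW {a b : Nat} (ha : a < 3510) (hb : b < 3510) : wv (eW a b) = dn a * dn b := by
  rw [eW, wv_append, wv_dW hb, wv_dW ha]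

theorem wv_eE {q : Nat × Nat × Nat} (hq : q ∈ prs) : wv (eW q.1 q.2.1) = eE q :=
  wv_eW (prs_spec hq).1 (prs_spec hq).2.1

theorem eW_q_lt {q : Nat × Nat × Nat} (hq : q ∈ prs) : ∀ z ∈ eW q.1 q.2.1, z < pt.k :=
  eW_lt (prs_spec hq).1 (prs_spec hq).2.1

theorem phi_eE {q : Nat × Nat × Nat} (hq : q ∈ prs) {y : Nat} (hy : y < 3510) :
    phi (eE q) (pN y) = pN (pt.val (eW q.1 q.2.1) y) := by
  rw [← wv_eE hq]
  exact phi_wv_pN (eW_q_lt hq) hy

theorem eE_sq {q : Nat × Nat × Nat} (hq : q ∈ prs) : eE q * eE q = 1 := by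
  have h := (comm_pair hq).eq
  calc eE q * eE q = dn q.1 * (dn q.2.1 * dn q.1) * dn q.2.1 := by rw [eE]; group
    _ = dn q.1 * (dn q.1 * dn q.2.1) * dn q.2.1 := by rw [h]
    _ = (dn q.1 * dn q.1) * (dn q.2.1 * dn q.2.1) := by group
    _ = 1 := by rw [dn_sq, dn_sq, one_mul]

theorem dn_eq_of_phi {g : Γ} {x x' : Nat} (hx' : x' < 3510) (h : (phi g (pN x)).1 = x') :
    g * dn x * g⁻¹ = dn x' := by
  rw [dn, conj_dp, dn]
  congr 1
  apply Fin.ext
  rw [pN_val hx', h]

theorem eE_comm {q q' : Nat × Nat × Nat} (hq : q ∈ prs) (hq' : q' ∈ prs) : Commute (eE q) (eE q') := by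
  have h := List.all_eq_true.1 (List.all_eq_true.1 chk_E_pair q hq) q' hq'
  rw [pt.walk_eq, pt.walk_eq] at h
  simp only [Bool.or_eq_true, Bool.and_eq_true] at h
  obtain ⟨h1, h2, -, -, -⟩ := prs_spec hq'
  have e1 : (phi (eE q) (pN q'.1)).1 = pt.val (eW q.1 q.2.1) q'.1 := by
    rw [phi_eE hq h1, pN_val (val_lt (eW_q_lt hq) h1)]
  have e2 : (phi (eE q) (pN q'.2.1)).1 = pt.val (eW q.1 q.2.1) q'.2.1 := by
    rw [phi_eE hq h2, pN_val (val_lt (eW_q_lt hq) h2)]
  have key : eE q * eE q' * (eE q)⁻¹ = eE q' := by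
    have e3 : eE q * eE q' * (eE q)⁻¹ = (eE q * dn q'.1 * (eE q)⁻¹) * (eE q * dn q'.2.1 * (eE q)⁻¹) := by
      rw [eE, eE]
      group
    rw [e3]
    rcases h with ⟨h3, h4⟩ | ⟨h3, h4⟩
    · rw [dn_eq_of_phi h1 (e1.trans (Nat.eq_of_beq_eq_true h3)), dn_eq_of_phi h2 (e2.trans (Nat.eq_of_beq_eq_true h4))]
      rfl
    · rw [dn_eq_of_phi h2 (e1.trans (Nat.eq_of_beq_eq_true h3)), dn_eq_of_phi h1 (e2.trans (Nat.eq_of_beq_eq_true h4))]
      exact (comm_pair hq').eq.symm
  exact mul_inv_eq_iff_eq_mul.mp key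

/-- Commuting with the generators is commuting with `O`. -/
theorem comm_O {g : Γ} (h : ∀ q ∈ prs, Commute g (eE q)) : ∀ y ∈ O, Commute g y := by
  intro y hy
  refine Subgroup.closure_induction (p := fun y _ => Commute g y) ?_ ?_ ?_ ?_ hy
  · rintro _ ⟨q, hq, rfl⟩
    exact h q hq
  · exact Commute.one_right g
  · intro a b _ _ ha hb
    exact ha.mul_right hb
  · intro a _ ha
    exact ha.inv_right

theorem O_comm {x y : Γ} (hx : x ∈ O) (hy : y ∈ O) : Commute x y := by
  refine comm_O (fun q hq => ?_) y hy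
  exact (comm_O (fun q' hq' => eE_comm hq hq') x hx).symm

theorem O_sq {x : Γ} (hx : x ∈ O) : x * x = 1 := by
  refine Subgroup.closure_induction (p := fun x _ => x * x = 1) ?_ ?_ ?_ ?_ hx
  · rintro _ ⟨q, hq, rfl⟩
    exact eE_sq hq
  · exact mul_one 1
  · intro a b ha hb h1 h2
    have h3 := (O_comm ha hb).eq
    calc a * b * (a * b) = a * (b * a) * b := by group
      _ = a * (a * b) * b := by rw [← h3]
      _ = (a * a) * (b * b) := by group
      _ = 1 := by rw [h1, h2, one_mul]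
  · intro a _ h1
    rw [← _root_.mul_inv_rev, h1, inv_one]

theorem O_inv {x : Γ} (hx : x ∈ O) : x⁻¹ = x := inv_eq_of_mul_eq_one_left (O_sq hx)

/-! ### The regular orbit -/

theorem lW_lt : ∀ {L : List Nat}, (∀ i ∈ L, i < 36) → ∀ z ∈ lW L, z < pt.k := by
  intro L hL z hz
  simp only [lW, List.mem_flatMap] at hz
  obtain ⟨i, hi, hz⟩ := hz
  exact eW_q_lt (getD_mem (hL i hi)) z hz

theorem lW_mem : ∀ (L : List Nat), (∀ i ∈ L, i < 36) → wv (lW L) ∈ O := by
  intro L
  induction L with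
  | nil =>
    intro _
    have : wv (lW []) = 1 := by simp [lW, wv]
    rw [this]
    exact O.one_mem
  | cons i L ih =>
    intro hL
    have e : lW (i :: L) = eW (prs.getD i (0, 0, 0)).1 (prs.getD i (0, 0, 0)).2.1 ++ lW L := by
      simp [lW]
    rw [e, wv_append]
    refine O.mul_mem (ih (fun j hj => hL j (List.mem_cons_of_mem _ hj))) ?_
    have hq := getD_mem (hL i (by simp))
    rw [wv_eE hq]
    exact eE_mem hq

theorem tA_spec {r : Nat × Nat × List Nat} (hr : r ∈ tA) :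
    r.1 < 3510 ∧ r.2.1 < 64 ∧ (∀ i ∈ r.2.2, i < 36) ∧ pt.val (lW r.2.2) 2 = r.1 := by
  have h1 := List.all_eq_true.1 chk_tA_lt r hr
  have h2 := List.all_eq_true.1 chk_tA_word r hr
  simp only [Bool.and_eq_true] at h1 h2
  refine ⟨by simpa [Nat.blt] using h1.1, by simpa [Nat.blt] using h1.2, fun i hi => ?_, Nat.eq_of_beq_eq_true h2.1⟩
  have h3 := List.all_eq_true.1 h2.2 i hi
  simpa [Nat.blt] using h3

/-- The element of the orbit. -/
theorem phi_tA {r : Nat × Nat × List Nat} (hr : r ∈ tA) : phi (wv (lW r.2.2)) (pN 2) = pN r.1 := by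
  obtain ⟨h1, h2, h3, h4⟩ := tA_spec hr
  rw [phi_wv_pN (lW_lt h3) (by decide), h4]

/-- The growing of the fixed points. -/
theorem growQ_mem (P : Nat → Prop) (hstep : ∀ x y, P x → P y → P (act x y)) :
    ∀ (l : List (Nat × Nat)) (S : List Nat), (∀ z ∈ S, P z) → ∀ z ∈ growQ l S, P z := by
  intro l
  induction l with
  | nil =>
    intro S hS z hz
    exact hS z hz
  | cons st l ih =>
    intro S hS
    refine ih _ ?_
    intro z hz
    cases hb : (memB st.1 S && memB st.2 S) with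
    | false =>
      rw [hb] at hz
      exact hS z hz
    | true =>
      rw [hb] at hz
      simp only [Bool.and_eq_true] at hb
      rcases List.mem_cons.1 hz with rfl | hz
      · exact hstep _ _ (hS _ (memB_spec hb.1)) (hS _ (memB_spec hb.2))
      · exact hS z hz

/-- An element commuting with `O` and fixing the point `2` is trivial. -/
theorem eq_one_of_fix {k : Γ} (hk : ∀ q ∈ prs, Commute k (eE q)) (h2 : phi k (pN 2) = pN 2) : k = 1 := by
  have hO := comm_O hk
  -- the orbit is fixed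
  have hA : ∀ z ∈ tA.map (·.1), z < 3510 ∧ phi k (pN z) = pN z := by
    intro z hz
    obtain ⟨r, hr, rfl⟩ := List.mem_map.1 hz
    obtain ⟨h3, h4, h5, h6⟩ := tA_spec hr
    refine ⟨h3, ?_⟩
    have h7 := (hO _ (lW_mem _ h5)).eq
    rw [← phi_tA hr, ← Equiv.Perm.mul_apply, ← map_mul, h7, map_mul, Equiv.Perm.mul_apply, h2]
  have hstep : ∀ x y, (x < 3510 ∧ phi k (pN x) = pN x) → (y < 3510 ∧ phi k (pN y) = pN y) →
      (act x y < 3510 ∧ phi k (pN (act x y)) = pN (act x y)) := by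
    rintro x y ⟨hx, hx2⟩ ⟨hy, hy2⟩
    have h3 : act x y < 3510 := val_lt (dW_lt hx) hy
    refine ⟨h3, ?_⟩
    have h4 : phi (dn x) (pN y) = pN (act x y) := by
      rw [← wv_dW hx]
      exact phi_wv_pN (dW_lt hx) hy
    have h5 : Commute k (dn x) := (comm_iff_phi k).2 hx2
    rw [← h4, ← Equiv.Perm.mul_apply, ← map_mul, h5.eq, map_mul, Equiv.Perm.mul_apply, hy2]
  have hgv : ∀ a ∈ gvL, Commute k (dp (pB a)) := by
    intro a ha
    have h3 : bt a ∈ gvP := by
      rw [chk_gv]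
      exact List.mem_map_of_mem ha
    have h4 := List.all_eq_true.1 chk_grow _ h3
    have h5 := growQ_mem _ hstep _ _ hA _ (memB_spec h4)
    exact (comm_iff_phi k).2 h5.2
  apply cent_N1
  intro n hn
  have h3 : n ∈ Subgroup.closure S1 := by
    rw [← I1_eq]
    exact N1_le_I1 hn
  refine Subgroup.closure_induction (p := fun n _ => Commute k n) ?_ ?_ ?_ ?_ h3
  · rintro _ ⟨a, ha, rfl⟩
    exact hgv a ha
  · exact Commute.one_right k
  · intro a b _ _ h4 h5
    exact h4.mul_right h5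
  · intro a _ h4
    exact h4.inv_right

/-- The filter: a point with the pattern of `2` is in the orbit. -/
theorem filter_spec {p : Nat} (hp : p < 3510) (h : ∀ t ∈ testsL, tst t p = tst t 2) : p ∈ tA.map (·.1) := by
  have h1 := List.all_eq_true.1 chk_filter p (List.mem_range.2 hp)
  simp only [Bool.or_eq_true, List.any_eq_true] at h1
  rcases h1 with h1 | ⟨t, ht, h1⟩
  · exact memB_spec h1
  · exfalso
    rw [h t ht] at h1
    cases hb : tst t 2 <;> simp [hb, eqb] at h1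

theorem tst_eq {t p : Nat} (ht : t < 36) (hp : p < 3510) :
    tst t p = cmB (pt.val (eW (prs.getD t (0, 0, 0)).1 (prs.getD t (0, 0, 0)).2.1) p) p := by
  rw [tst, pt.walk_eq]

/-- **The centralizer of `O` is `O`.** -/
theorem cent_O {g : Γ} (hg : ∀ q ∈ prs, Commute g (eE q)) : g ∈ O := by
  set p : Nat := (phi g (pN 2)).1 with hp
  have hp3 : p < 3510 := (phi g (pN 2)).2
  have hpN : pN p = phi g (pN 2) := pN_coe _
  have htest : ∀ t ∈ testsL, tst t p = tst t 2 := by
    intro t ht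
    have ht2 : t < 36 := by
      have := List.all_eq_true.1 chk_tests t ht
      simpa [Nat.blt] using this
    have hq := getD_mem ht2
    set q := prs.getD t (0, 0, 0) with hqdef
    rw [tst_eq ht2 hp3, tst_eq ht2 (by decide)]
    have h2lt : (2 : Nat) < 3510 := by decide
    set z₁ := pt.val (eW q.1 q.2.1) 2 with hz₁
    set z₂ := pt.val (eW q.1 q.2.1) p with hz₂
    have hz₁lt : z₁ < 3510 := val_lt (eW_q_lt hq) h2lt
    have hz₂lt : z₂ < 3510 := val_lt (eW_q_lt hq) hp3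
    have e1 : phi g (pN z₁) = pN z₂ := by
      rw [hz₁, ← phi_eE hq h2lt, ← Equiv.Perm.mul_apply, ← map_mul, (hg q hq).eq, map_mul, Equiv.Perm.mul_apply, ← hpN,
        phi_eE hq hp3]
    have e2 : Commute (dn z₂) (dn p) ↔ Commute (dn z₁) (dn 2) := by
      have h3 := comm_conj_iff' g z₁ 2
      rw [e1, ← hpN] at h3
      exact h3
    apply Bool.eq_iff_iff.2
    rw [cmB_iff hz₂lt hp3, cmB_iff hz₁lt h2lt]
    exact e2
  obtain ⟨r, hr, hrp⟩ := List.mem_map.1 (filter_spec hp3 htest)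
  obtain ⟨h3, h4, h5, h6⟩ := tA_spec hr
  have ho := lW_mem _ h5
  set o := wv (lW r.2.2) with hodef
  have hk : o⁻¹ * g = 1 := by
    apply eq_one_of_fix
    · intro q hq
      exact ((comm_O (fun q' hq' => eE_comm hq hq') o ho).symm.inv_left).mul_left (hg q hq)
    · rw [map_mul, map_inv, Equiv.Perm.mul_apply, ← hpN]
      have h7 : pN p = phi o (pN 2) := by
        rw [phi_tA hr, hrp]
      rw [h7]
      simp
  have : g = o := (inv_mul_eq_one.mp hk).symm
  rw [this]
  exact ho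

/-! ### Coordinates on `O` -/

/-- The relation of the table. -/
def Tr (z c : Nat) : Prop := ∃ L, (z, c, L) ∈ tA

theorem memT_spec {z c : Nat} (h : memT z c = true) : Tr z c := by
  obtain ⟨r, hr, h1⟩ := List.any_eq_true.1 h
  simp only [Bool.and_eq_true] at h1
  have h2 := Nat.eq_of_beq_eq_true h1.1
  have h3 := Nat.eq_of_beq_eq_true h1.2
  subst h2 h3
  exact ⟨r.2.2, hr⟩

theorem Tr_lt {z c : Nat} (h : Tr z c) : z < 3510 ∧ c < 64 := by
  obtain ⟨L, hL⟩ := h
  have := tA_spec hL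
  exact ⟨this.1, this.2.1⟩

theorem Tr_fun {z c z' c' : Nat} (h : Tr z c) (h' : Tr z' c') : z = z' ↔ c = c' := by
  obtain ⟨L, hL⟩ := h
  obtain ⟨L', hL'⟩ := h'
  have h1 := List.all_eq_true.1 (List.all_eq_true.1 chk_tA_fun _ hL) _ hL'
  simp only at h1
  constructor
  · rintro rfl
    have h2 : Nat.beq z z = true := by simp
    rw [h2] at h1
    simpa [eqb] using h1
  · rintro rfl
    have h2 : Nat.beq c c = true := by simp
    rw [h2] at h1
    cases h3 : Nat.beq z z' with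
    | false =>
      rw [h3] at h1
      simp [eqb] at h1
    | true => exact Nat.eq_of_beq_eq_true h3

theorem Tr_zero : Tr 2 0 := ⟨[], chk_tA_zero⟩

/-- The table is preserved by `O`. -/
theorem exists_code {o : Γ} (ho : o ∈ O) :
    ∃ d, d < 64 ∧ ∀ z c, Tr z c → Tr (phi o (pN z)).1 (c ^^^ d) := by
  refine Subgroup.closure_induction (p := fun o _ => ∃ d, d < 64 ∧ ∀ z c, Tr z c → Tr (phi o (pN z)).1 (c ^^^ d))
    ?_ ?_ ?_ ?_ ho
  · rintro _ ⟨q, hq, rfl⟩
    refine ⟨q.2.2, (prs_spec hq).2.2.1, ?_⟩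
    rintro z c ⟨L, hL⟩
    have h := List.all_eq_true.1 (List.all_eq_true.1 chk_tA_act _ hL) q hq
    rw [pt.walk_eq] at h
    have hz := (tA_spec hL).1
    rw [phi_eE hq hz, pN_val (val_lt (eW_q_lt hq) hz)]
    exact memT_spec h
  · refine ⟨0, by decide, fun z c h => ?_⟩
    rw [map_one, Equiv.Perm.one_apply, pN_val (Tr_lt h).1, Nat.xor_zero]
    exact h
  · rintro a b _ _ ⟨d, hd, ha⟩ ⟨e, he, hb⟩
    refine ⟨d ^^^ e, ?_, fun z c h => ?_⟩
    · have := Nat.xor_lt_two_pow (n := 6) (by simpa using hd) (by simpa using he)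
      simpa using this
    · have h1 := hb z c h
      have h2 := ha _ _ h1
      rw [pN_coe] at h2
      rw [map_mul, Equiv.Perm.mul_apply]
      have e3 : c ^^^ (d ^^^ e) = c ^^^ e ^^^ d := by
        rw [Nat.xor_assoc, Nat.xor_comm d e]
      rw [e3]
      exact h2
  · rintro a ha ⟨d, hd, h⟩
    rw [O_inv ha]
    exact ⟨d, hd, h⟩

/-- The code of an element. -/
noncomputable def cod (o : O) : Nat := (exists_code o.2).choose

theorem cod_lt (o : O) : cod o < 64 := (exists_code o.2).choose_spec.1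

theorem cod_spec (o : O) {z c : Nat} (h : Tr z c) : Tr (phi o.1 (pN z)).1 (c ^^^ cod o) :=
  (exists_code o.2).choose_spec.2 z c h

theorem cod_base (o : O) : Tr (phi o.1 (pN 2)).1 (cod o) := by
  have h := cod_spec o Tr_zero
  rwa [Nat.zero_xor] at h

theorem cod_eq (o : O) {c : Nat} (h : Tr (phi o.1 (pN 2)).1 c) : cod o = c :=
  (Tr_fun (cod_base o) h).1 rfl

theorem cod_mul (x y : O) : cod (x * y) = cod x ^^^ cod y := by
  apply cod_eq
  have h1 := cod_spec x (cod_base y)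
  rw [pN_coe] at h1
  have e : ((x * y : O) : Γ) = x.1 * y.1 := rfl
  rw [e, map_mul, Equiv.Perm.mul_apply, Nat.xor_comm]
  exact h1

theorem cod_one : cod 1 = 0 := by
  apply cod_eq
  have e : ((1 : O) : Γ) = 1 := rfl
  rw [e, map_one, Equiv.Perm.one_apply, pN_val (by decide)]
  exact Tr_zero

theorem cod_eE {q : Nat × Nat × Nat} (hq : q ∈ prs) : cod ⟨eE q, eE_mem hq⟩ = q.2.2 := by
  apply cod_eq
  obtain ⟨d, hd, h⟩ := exists_code (eE_mem hq)
  -- directly from the check at the point `2`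
  have h1 := List.all_eq_true.1 (List.all_eq_true.1 chk_tA_act _ chk_tA_zero) q hq
  rw [pt.walk_eq] at h1
  rw [phi_eE hq (by decide), pN_val (val_lt (eW_q_lt hq) (by decide))]
  have h2 := memT_spec h1
  simpa using h2

/-- The index of the coordinates. -/
def idx6 : (Fin 2 ⊕ Fin 2) ⊕ Fin 2 → ℕ
  | .inl (.inl i) => i
  | .inl (.inr i) => i + 2
  | .inr i => i + 4

theorem idx6_inj : Function.Injective idx6 := by decide

theorem idx6_lt : ∀ i, idx6 i < 6 := by decide

/-- The space. -/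
abbrev V6 := (Fin 2 ⊕ Fin 2) ⊕ Fin 2 → ZMod 2

/-- The form. -/
noncomputable abbrev Q6 : QuadraticForm (ZMod 2) V6 := minusForm 2 (ZMod 2) 1 1

/-- The vector with a given code. -/
def dw6 (x : ℕ) : V6 := dec idx6 x

theorem dw6_surj (v : V6) : ∃ x, x < 64 ∧ dw6 x = v := by
  obtain ⟨c, hc, h⟩ := dec_surj idx6 idx6_inj 6 idx6_lt v
  exact ⟨c, by simpa using hc, h⟩

/-- The code of a vector. -/
def enc6 (v : V6) : ℕ := ∑ i, (v i).val * 2 ^ idx6 i

theorem enc_dw6 : ∀ x < 64, enc6 (dw6 x) = x := by decide +kernel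

theorem dw6_inj {x y : ℕ} (hx : x < 64) (hy : y < 64) (h : dw6 x = dw6 y) : x = y := by
  rw [← enc_dw6 x hx, ← enc_dw6 y hy, h]

theorem Q_dw6 : ∀ x < 64, Q6 (dw6 x) = if q6 x = true then 1 else 0 := by decide +kernel

theorem Q6_ne {x : ℕ} (hx : x < 64) (hq : q6 x = true) : Q6 (dw6 x) ≠ 0 := by
  rw [Q_dw6 x hx, if_pos hq]
  decide

theorem q6_of_Q {x : ℕ} (hx : x < 64) (h : Q6 (dw6 x) ≠ 0) : q6 x = true := by
  by_contra hq
  rw [Q_dw6 x hx, if_neg hq] at h
  exact h rfl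

theorem hQ6 : (polarBilin Q6).Nondegenerate := minusForm_nondeg 2 (by decide)

/-- The vector of an element. -/
noncomputable def kv (o : O) : V6 := dw6 (cod o)

theorem kv_mul (x y : O) : kv (x * y) = kv x + kv y := by
  rw [kv, cod_mul]
  exact dec_xor idx6 _ _

theorem kv_one : kv 1 = 0 := by
  rw [kv, cod_one]
  exact dec_zero idx6

theorem kv_inj {x y : O} (h : kv x = kv y) : x = y := by
  have h1 : cod x = cod y := dw6_inj (cod_lt x) (cod_lt y) h
  have h2 : (phi x.1 (pN 2)).1 = (phi y.1 (pN 2)).1 := (Tr_fun (cod_base x) (by rw [h1]; exact cod_base y)).2 rfl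
  have h3 : phi x.1 (pN 2) = phi y.1 (pN 2) := Fin.ext h2
  have h4 : x.1⁻¹ * y.1 = 1 := by
    apply eq_one_of_fix
    · intro q hq
      exact ((comm_O (fun q' hq' => eE_comm hq hq') x.1 x.2).symm.inv_left).mul_left
        (comm_O (fun q' hq' => eE_comm hq hq') y.1 y.2).symm
    · rw [map_mul, map_inv, Equiv.Perm.mul_apply, ← h3]
      simp
  exact Subtype.ext (inv_mul_eq_one.mp h4)

theorem kv_surj (v : V6) : ∃ o : O, kv o = v := by
  obtain ⟨c, hc, rfl⟩ := dw6_surj v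
  have h1 := List.all_eq_true.1 chk_tA_cover c (List.mem_range.2 hc)
  obtain ⟨r, hr, h2⟩ := List.any_eq_true.1 h1
  have h3 := Nat.eq_of_beq_eq_true h2
  obtain ⟨h4, h5, h6, h7⟩ := tA_spec hr
  refine ⟨⟨_, lW_mem _ h6⟩, ?_⟩
  rw [kv]
  congr 1
  apply cod_eq
  rw [phi_tA hr, pN_val h4, ← h3]
  exact ⟨r.2.2, hr⟩

/-- `O` as a group of vectors. -/
noncomputable def kvE : O ≃ V6 := Equiv.ofBijective kv ⟨fun _ _ h => kv_inj h, kv_surj⟩

/-- The order of `O`. -/
theorem card_O : Nat.card O = 64 := by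
  rw [Nat.card_congr kvE]
  simp [V6, Nat.card_eq_fintype_card]

/-- `O` is elementary abelian. -/
theorem O_elem : IsElementaryAbelian 2 O :=
  ⟨⟨⟨fun x y => Subtype.ext (O_comm x.2 y.2).eq⟩⟩, fun a ha => by
    rw [pow_two]
    exact O_sq ha⟩

/-- Nonsingular vectors are exactly the products of the pairs. -/
theorem q6_iff (o : O) : q6 (cod o) = true ↔ ∃ q ∈ prs, o.1 = eE q := by
  constructor
  · intro h
    have h1 := List.all_eq_true.1 chk_Qcover (cod o) (List.mem_range.2 (cod_lt o))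
    rw [h] at h1
    simp only [Bool.not_true, Bool.false_or, List.any_eq_true] at h1
    obtain ⟨q, hq, h2⟩ := h1
    refine ⟨q, hq, ?_⟩
    have h3 : cod o = cod ⟨eE q, eE_mem hq⟩ := by
      rw [cod_eE hq]
      exact (Nat.eq_of_beq_eq_true h2).symm
    have h4 : o = ⟨eE q, eE_mem hq⟩ := kv_inj (by rw [kv, kv, h3])
    rw [h4]
  · rintro ⟨q, hq, h⟩
    have h1 : o = ⟨eE q, eE_mem hq⟩ := Subtype.ext h
    rw [h1, cod_eE hq]
    exact (prs_spec hq).2.2.2.1

end Cfsg.Agent.Lib.ThreeT.F22.O8.Out
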