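import Cfsg.Agent.Lib.ThreeT.F22.O8.Out.Pc

/-!
# The numerical enumeration of the outer involutions of the Sylow subgroup
-/

set_option autoImplicit false
set_option linter.style.longLine false
set_option maxRecDepth 1000000
set_option maxHeartbeats 0

namespace Cfsg.Agent.Lib.ThreeT.F22.O8.Out

open Cfsg Cfsg.Agent.Lib.TC.Core Cfsg.Agent.Lib.TC.Chain Cfsg.Agent.Lib.TC.D.Fi22b.Tab
  Cfsg.Agent.Lib.ThreeT.F22.O8 PcAbs PcD

/-- The test of an involution, on the base. -/
def tstE (e : Nat) : Bool := BS.all (fun b => Nat.beq (sN (ev tL e (sN (ev tL e b)))) b)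

/-- The test of a normal form. -/
def fchk (e : Nat) : Bool := !(tstE e) || Nat.testBit SOL e

theorem hAll0 : rngAll fchk 13 0 = true := by decide +kernel

theorem hAll1 : rngAll fchk 13 8192 = true := by decide +kernel

theorem hAll2 : rngAll fchk 13 16384 = true := by decide +kernel

theorem hAll3 : rngAll fchk 13 24576 = true := by decide +kernel

theorem hAll4 : rngAll fchk 13 32768 = true := by decide +kernel

theorem hAll5 : rngAll fchk 13 40960 = true := by decide +kernel

theorem hAll6 : rngAll fchk 13 49152 = true := by decide +kernel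

theorem hAll7 : rngAll fchk 13 57344 = true := by decide +kernel

theorem hAll8 : rngAll fchk 13 65536 = true := by decide +kernel

theorem hAll9 : rngAll fchk 13 73728 = true := by decide +kernel

theorem hAll10 : rngAll fchk 13 81920 = true := by decide +kernel

theorem hAll11 : rngAll fchk 13 90112 = true := by decide +kernel

theorem hAll12 : rngAll fchk 13 98304 = true := by decide +kernel

theorem hAll13 : rngAll fchk 13 106496 = true := by decide +kernel

theorem hAll14 : rngAll fchk 13 114688 = true := by decide +kernel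

theorem hAll15 : rngAll fchk 13 122880 = true := by decide +kernel

/-- The enumeration. -/
theorem hAll {e : Nat} (he : e < 2 ^ 17) : fchk e = true := by
  have h1 : e / 8192 < 16 := by omega
  have hs : ∀ k, e / 8192 = k → k * 8192 ≤ e ∧ e < k * 8192 + 2 ^ 13 := by
    intro k hk
    subst hk
    omega
  generalize hk : e / 8192 = k at h1
  obtain ⟨h2, h3⟩ := hs k hk
  interval_cases k
  · exact rngAll_spec hAll0 h2 h3
  · exact rngAll_spec hAll1 h2 h3
  · exact rngAll_spec hAll2 h2 h3
  · exact rngAll_spec hAll3 h2 h3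
  · exact rngAll_spec hAll4 h2 h3
  · exact rngAll_spec hAll5 h2 h3
  · exact rngAll_spec hAll6 h2 h3
  · exact rngAll_spec hAll7 h2 h3
  · exact rngAll_spec hAll8 h2 h3
  · exact rngAll_spec hAll9 h2 h3
  · exact rngAll_spec hAll10 h2 h3
  · exact rngAll_spec hAll11 h2 h3
  · exact rngAll_spec hAll12 h2 h3
  · exact rngAll_spec hAll13 h2 h3
  · exact rngAll_spec hAll14 h2 h3
  · exact rngAll_spec hAll15 h2 h3

/-- The words of the representatives. -/
noncomputable def cw : Nat → List Nat
  | 0 => []
  | 1 => nw 17
  | _ => nw 34 ++ nw 17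

/-- The check of a root. -/
noncomputable def rootOK (e r : Nat) (hw : List Nat) : Bool :=
  hw.all (fun z => Nat.blt z 9) && BS.all (fun b => Nat.beq (sN (pt.val hw (sN (ev tL e b)))) (pt.val (cw r) (pt.val hw b)))

/-- The mask of the roots. -/
noncomputable def chkR : List (Nat × Nat × List Nat) → Nat → Nat
  | [], M => M
  | q :: rest, M => bif (Nat.blt q.2.1 3 && rootOK q.1 q.2.1 q.2.2) then chkR rest (Nat.lor M (Nat.shiftLeft 1 q.1)) else 0

/-- The check of a conjugation. -/
def cjF (v u j : Nat) : Bool :=
  BS.all (fun b => Nat.beq (sN (lk (tL.getD j 0) (sN (ev tL u b)))) (ev tL v (lk (tL.getD j 0) b)))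

/-- The mask of the forest. -/
def chkF : List (Nat × Nat × Nat) → Nat → Nat
  | [], M => M
  | q :: rest, M => bif (Nat.testBit M q.2.1 && Nat.blt q.2.2 17 && cjF q.1 q.2.1 q.2.2) then chkF rest (Nat.lor M (Nat.shiftLeft 1 q.1)) else 0

/-- All solutions are reached. -/
theorem hforest : Nat.land SOL (chkF fL (chkR rL 0)) = SOL := by decide +kernel

end Cfsg.Agent.Lib.ThreeT.F22.O8.Out
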