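import Cfsg.Agent.Lib.ThreeT.F22.O8.Out.Sigma

/-!
# The fixed subgroup of `σ` is `I8`; `σ` is not inner
-/

set_option autoImplicit false
set_option linter.style.haveILetI false
set_option linter.unusedSectionVars false
set_option linter.unusedVariables false
set_option linter.style.longLine false
set_option linter.unnecessarySimpa false
set_option maxRecDepth 1000000

namespace Cfsg.Agent.Lib.ThreeT.F22.O8.Out

open Cfsg Cfsg.Agent.Lib.TC.Core Cfsg.Agent.Lib.TC.Pres Cfsg.Agent.Lib.TC.Chain Cfsg.Agent.Lib.TC.Chain.PermLev Cfsg.Agent.Lib.TC.G.Fi22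
  Cfsg.Agent.Lib.TC.D.Fi22b.Tab Cfsg.Agent.Lib.TC.D.Fi22b.Ok
  Cfsg.Agent.Lib.ThreeT.F22.Sift Cfsg.Agent.Lib.ThreeT.F22.Act Cfsg.Agent.Lib.ThreeT.F22.PLoc
  Cfsg.Agent.Lib.ThreeT.F22.Cnt Cfsg.Agent.Lib.ThreeT.F22.DPts Cfsg.Agent.Lib.ThreeT.F22.D5
  Cfsg.Agent.Lib.ThreeT.F22.M5 Cfsg.Agent.Lib.ThreeT.F22.O8

/-- The first component. -/
def K0 (q : Fin pt.n) : Prop := ∃ v, v < 256 ∧ qt v = true ∧ pB v = q

theorem K0_of_isK0 {q : Fin pt.n} (h : isK0 q.1 = true) : K0 q := by
  obtain ⟨v, hv, qv, e⟩ := isK0_spec h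
  exact ⟨v, hv, qv, Fin.ext (by rw [pB_val hv qv, e])⟩

theorem isK0_of_K0 {q : Fin pt.n} (h : K0 q) : isK0 q.1 = true := by
  obtain ⟨v, hv, qv, rfl⟩ := h
  apply List.any_eq_true.2
  refine ⟨v, List.mem_range.2 hv, ?_⟩
  rw [pB_val hv qv]
  simp [qv]

theorem phi_dw (q : Fin pt.n) : (phi dd q).1 = pt.val dw q.1 := phi_val hdw q

theorem phi_dw17 (q : Fin pt.n) : (phi (dd * c0) q).1 = pt.val (nw 17 ++ dw) q.1 := by
  have h : dd * c0 = wv (nw 17 ++ dw) := by
    rw [wv_append, wv_nw (by decide) (by decide +kernel)]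
    rfl
  rw [h]
  apply phi_val
  intro z hz
  rcases List.mem_append.1 hz with hz | hz
  · exact hn17 z hz
  · exact hdw z hz

theorem c0_mem_I8 : c0 ∈ I8 := I1_le (dp_mem_I1 (by decide) (by decide +kernel))

/-- Any point fixed by `sP` is moved into the first component by `I8`. -/
theorem exists_to_K0 {q : Fin pt.n} (hq : sP q = q) : ∃ u ∈ I8, K0 (phi u q) := by
  have h0 : Nat.beq (sN q.1) q.1 = true := by
    have : sN q.1 = q.1 := congrArg Fin.val hq
    rw [this]
    simp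
  have h := List.all_eq_true.1 hcomps q.1 (List.mem_range.2 q.2)
  rw [h0] at h
  simp only [Bool.not_true, Bool.false_or, Bool.or_eq_true] at h
  rcases h with (h | h) | h
  · exact ⟨1, I8.one_mem, K0_of_isK0 (by simpa using h)⟩
  · refine ⟨dd, dd_mem_I8, K0_of_isK0 ?_⟩
    rw [phi_dw]
    exact h
  · refine ⟨dd * c0, I8.mul_mem dd_mem_I8 c0_mem_I8, K0_of_isK0 ?_⟩
    rw [phi_dw17]
    exact h

/-- A point fixed by `sP` commuting with a point of the first component is in the component. -/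
theorem K0_of_comm {v : Nat} (hv : v < 256) (qv : qt v = true) {q : Fin pt.n} (hq : sP q = q)
    (hc : phi (dp (pB v)) q = q) : K0 q := by
  have h0 : Nat.beq (sN q.1) q.1 = true := by
    have : sN q.1 = q.1 := congrArg Fin.val hq
    rw [this]
    simp
  have h := List.all_eq_true.1 hcross v (List.mem_range.2 hv)
  simp only [qv, Bool.not_true, Bool.false_or] at h
  have h1 := List.all_eq_true.1 h q.1 (List.mem_range.2 q.2)
  rw [h0] at h1
  simp only [Bool.not_true, Bool.false_or, Bool.or_eq_true] at h1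
  rcases h1 with h1 | h1
  · exact K0_of_isK0 h1
  · exfalso
    have h2 : pt.val (nw v) q.1 = q.1 := by
      rw [← phi_val (nw_lt hv qv) q, wv_nw hv qv, hc]
    rw [h2] at h1
    simp at h1

/-- The commuting relation on the vectors. -/
theorem comm_of_tf {a x : Nat} (ha : a < 256) (qa : qt a = true) (hx : x < 256) (qx : qt x = true) (h : tf a x = x) :
    phi (dp (pB a)) (pB x) = pB x := by
  obtain ⟨y, hy, qy, e1, e2⟩ := Rl_Phi (rv a) x hx qx
  rw [Phi_rv ha qa] at e2
  rw [e2]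
  rw [ac_rv ha qa hx, h] at e1
  rw [dv_inj hx hy e1]

theorem hK0fix : ∀ x < 256, qt x = true → sN (bt x) = bt x := by decide +kernel

theorem fix_K0 {x : Nat} (hx : x < 256) (qx : qt x = true) : sP (pB x) = pB x := by
  apply Fin.ext
  rw [sP_val, pB_val hx qx]
  exact hK0fix x hx qx

theorem phi_comm_conj (h : Γ) {p q : Fin pt.n} (hc : phi (dp p) q = q) : phi (dp (phi h p)) (phi h q) = phi h q := by
  rw [← conj_dp]
  simp [map_mul, Equiv.Perm.mul_apply, hc]

/-- Elements preserving the fixed points and sending one point into the component preserve the component. -/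
theorem K0_all {h : Γ} (hh : h ∈ FixS) (h0 : K0 (phi h (pB 17))) {x : Nat} (hx : x < 256) (qx : qt x = true) :
    K0 (phi h (pB x)) := by
  have key : ∀ {a b : Nat}, a < 256 → qt a = true → b < 256 → qt b = true → tf a b = b → K0 (phi h (pB a)) → K0 (phi h (pB b)) := by
    intro a b ha qa hb qb hab hKa
    obtain ⟨v, hv, qv, ev⟩ := hKa
    apply K0_of_comm hv qv (sP_phi hh (fix_K0 hb qb))
    have h1 := phi_comm_conj h (comm_of_tf ha qa hb qb hab)
    rw [ev]
    exact h1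
  obtain ⟨y, hy, qy, h1, h2⟩ := hconn x hx qx
  have h3 : K0 (phi h (pB y)) := key (by decide) (by decide +kernel) hy qy h1 h0
  exact key hy qy hx qx h2 h3

theorem norm_of_K0 {h : Γ} (hh : h ∈ FixS) (h0 : K0 (phi h (pB 17))) : h ∈ Subgroup.normalizer (N1 : Set Γ) := by
  have h1 : N1.map (MulAut.conj h).toMonoidHom ≤ N1 := by
    have h2 : N1 ≤ H1 := le_H1
    refine (Subgroup.map_mono h2).trans ?_
    rw [H1, MonoidHom.map_closure, Subgroup.closure_le]
    rintro _ ⟨_, ⟨_, ⟨a, ha, rfl⟩, rfl⟩, rfl⟩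
    have h3 : (MulAut.conj h).toMonoidHom (c0 * dp (pB a)) = h * c0 * h⁻¹ * (h * dp (pB a) * h⁻¹) := by
      show h * (c0 * dp (pB a)) * h⁻¹ = _
      group
    rw [h3, c0, conj_dp, conj_dp]
    obtain ⟨v, hv, qv, ev⟩ := h0
    obtain ⟨u, hu, qu, eu⟩ := K0_all hh ⟨v, hv, qv, ev⟩ (hgv a ha).1 (hgv a ha).2
    rw [← ev, ← eu]
    exact pair_mem hv qv hu qu
  apply mem_normalizer_of_map
  apply Subgroup.eq_of_le_of_card_ge h1
  rw [Subgroup.card_map_of_injective (MulAut.conj h).injective]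

theorem norm_le_I8 : Subgroup.normalizer (N1 : Set Γ) ≤ I8 := by
  have hle : I8 ≤ Subgroup.normalizer (N1 : Set Γ) := I8_le_normalizer
  have h1 : Nat.card (MulAut Om) ≤ Nat.card (Subgroup.normalizer (N1 : Set Γ) : Subgroup Γ) :=
    card_I8.trans (Subgroup.card_le_of_le hle)
  obtain ⟨e⟩ := aut_iso (Subgroup.normalizer (N1 : Set Γ)) N1 (le_refl _) (fun g _ hg => cent_N1 hg) eN h1
  have h2 : Nat.card (Subgroup.normalizer (N1 : Set Γ) : Subgroup Γ) = Nat.card (MulAut Om) := Nat.card_congr e.toEquiv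
  have h3 : I8 = Subgroup.normalizer (N1 : Set Γ) := by
    apply Subgroup.eq_of_le_of_card_ge hle
    rw [h2]
    exact card_I8
  rw [h3]

theorem FixS_le : FixS ≤ I8 := by
  intro g hg
  have hf : sP (pB 17) = pB 17 := fix_K0 (by decide) (by decide +kernel)
  obtain ⟨u, hu, hk⟩ := exists_to_K0 (sP_phi hg hf)
  have h1 : u * g ∈ FixS := FixS.mul_mem (I8_le_FixS hu) hg
  have h2 : K0 (phi (u * g) (pB 17)) := by
    rw [map_mul, Equiv.Perm.mul_apply]
    exact hk
  have h3 : u * g ∈ I8 := norm_le_I8 (norm_of_K0 h1 h2)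
  have h4 : g = u⁻¹ * (u * g) := by group
  rw [h4]
  exact I8.mul_mem (I8.inv_mem hu) h3

theorem FixS_eq : FixS = I8 := le_antisymm FixS_le I8_le_FixS

theorem sig_fix_iff (g : Γ) : sig g = g ↔ g ∈ I8 := by
  rw [← FixS_eq]
  exact Iff.rfl

/-- A point moved by `σ`. -/
theorem sP_moves : ∃ p : Fin pt.n, sP p ≠ p := by
  refine ⟨⟨1, by decide⟩, fun h => ?_⟩
  have h1 : sN 1 = 1 := congrArg Fin.val h
  revert h1
  decide +kernel

theorem sig_ne_one : sig ≠ 1 := by
  intro h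
  obtain ⟨p, hp⟩ := sP_moves
  apply hp
  apply sig_fix_dp.1
  rw [h]
  rfl

/-- `σ` is not inner. -/
theorem sig_not_inner : sig ∉ (MulAut.conj : Γ →* MulAut Γ).range := by
  rintro ⟨c, hc⟩
  have h1 : c = 1 := by
    apply cent_N1
    intro n hn
    have h2 : sig n = n := (sig_fix_iff n).2 (N1_le hn)
    rw [← hc] at h2
    have h3 : c * n * c⁻¹ = n := h2
    show c * n = n * c
    calc c * n = c * n * c⁻¹ * c := by group
      _ = n * c := by rw [h3]
  apply sig_ne_one
  rw [← hc, h1, map_one]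

theorem orderOf_sig : orderOf sig = 2 :=
  orderOf_eq_prime (by rw [pow_two]; exact sig_sq) sig_ne_one

end Cfsg.Agent.Lib.ThreeT.F22.O8.Out
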