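import Mathlib

/-!
# Polycyclic normal forms in a group

A list of elements, each normalizing the group generated by the later ones and with square in it, gives normal forms
for the group generated by the list.
-/

set_option autoImplicit false
set_option linter.style.haveILetI false
set_option linter.unusedSectionVars false
set_option linter.unusedVariables false
set_option linter.style.longLine false
set_option linter.unnecessarySimpa false

namespace Cfsg.Agent.Lib.ThreeT.F22.O8.Out.PcAbs

variable {G : Type*} [Group G]

/-- The normal form with exponents given by the bits of `e`. -/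
def nfG : List G → Nat → G
  | [], _ => 1
  | x :: xs, e => (if e % 2 = 1 then x else 1) * nfG xs (e / 2)

/-- The group generated by a list. -/
def clL (L : List G) : Subgroup G := Subgroup.closure {y | y ∈ L}

theorem mem_clL_of_mem {L : List G} {y : G} (hy : y ∈ L) : y ∈ clL L := Subgroup.subset_closure hy

theorem clL_mono (x : G) (L : List G) : clL L ≤ clL (x :: L) :=
  Subgroup.closure_mono fun y hy => List.mem_cons_of_mem _ hy

theorem nf_mem (L : List G) (e : Nat) : nfG L e ∈ clL L := by
  induction L generalizing e with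
  | nil => exact Subgroup.one_mem _
  | cons x xs ih =>
    rw [nfG]
    apply Subgroup.mul_mem
    · split_ifs
      · exact mem_clL_of_mem (List.mem_cons_self)
      · exact Subgroup.one_mem _
    · exact clL_mono x xs (ih _)

/-- The conditions for normal forms. -/
def PC : List G → Prop
  | [] => True
  | x :: xs => PC xs ∧ (∀ y ∈ xs, x * y * x⁻¹ ∈ clL xs) ∧ x * x ∈ clL xs

theorem conj_mem {x : G} {xs : List G} (h : ∀ y ∈ xs, x * y * x⁻¹ ∈ clL xs) {g : G} (hg : g ∈ clL xs) : x * g * x⁻¹ ∈ clL xs := by
  have h1 : clL xs ≤ (clL xs).comap (MulAut.conj x).toMonoidHom := by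
    rw [clL, Subgroup.closure_le]
    intro y hy
    exact h y hy
  exact h1 hg

theorem step_mem {x : G} {xs : List G} (h : ∀ y ∈ xs, x * y * x⁻¹ ∈ clL xs) (hs : x * x ∈ clL xs) {g : G}
    (hg : g ∈ clL (x :: xs)) : g ∈ clL xs ∨ ∃ k ∈ clL xs, g = x * k := by
  -- the union is a subgroup
  have hc : ∀ {u : G}, u ∈ clL xs → x⁻¹ * u * x ∈ clL xs := by
    intro u hu
    have h1 := conj_mem h hu
    have e : x⁻¹ * u * x = (x * x)⁻¹ * (x * u * x⁻¹) * (x * x) := by group
    rw [e]
    exact Subgroup.mul_mem _ (Subgroup.mul_mem _ (Subgroup.inv_mem _ hs) h1) hs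
  let T : Subgroup G :=
    { carrier := {g | g ∈ clL xs ∨ ∃ k ∈ clL xs, g = x * k}
      one_mem' := Or.inl (Subgroup.one_mem _)
      mul_mem' := by
        rintro a b (ha | ⟨k, hk, rfl⟩) (hb | ⟨l, hl, rfl⟩)
        · exact Or.inl (Subgroup.mul_mem _ ha hb)
        · refine Or.inr ⟨x⁻¹ * a * x * l, Subgroup.mul_mem _ (hc ha) hl, by group⟩
        · exact Or.inr ⟨k * b, Subgroup.mul_mem _ hk hb, by group⟩
        · left
          have e : x * k * (x * l) = (x * x) * (x⁻¹ * k * x) * l := by group
          rw [e]
          exact Subgroup.mul_mem _ (Subgroup.mul_mem _ hs (hc hk)) hl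
      inv_mem' := by
        rintro a (ha | ⟨k, hk, rfl⟩)
        · exact Or.inl (Subgroup.inv_mem _ ha)
        · right
          refine ⟨x⁻¹ * k⁻¹ * x * (x * x)⁻¹ , Subgroup.mul_mem _ (hc (Subgroup.inv_mem _ hk)) (Subgroup.inv_mem _ hs), by group⟩ }
  have h1 : clL (x :: xs) ≤ T := by
    rw [clL, Subgroup.closure_le]
    intro y hy
    rcases List.mem_cons.1 hy with rfl | hy
    · exact Or.inr ⟨1, Subgroup.one_mem _, by group⟩
    · exact Or.inl (mem_clL_of_mem hy)
  exact h1 hg

/-- Normal forms. -/
theorem mem_nf {L : List G} (h : PC L) {g : G} (hg : g ∈ clL L) : ∃ e, e < 2 ^ L.length ∧ g = nfG L e := by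
  induction L generalizing g with
  | nil =>
    refine ⟨0, by simp, ?_⟩
    have : clL ([] : List G) = ⊥ := by simp [clL]
    rw [this, Subgroup.mem_bot] at hg
    rw [hg]
    rfl
  | cons x xs ih =>
    obtain ⟨h0, h1, h2⟩ := h
    rcases step_mem h1 h2 hg with hk | ⟨k, hk, rfl⟩
    · obtain ⟨e, he, rfl⟩ := ih h0 hk
      refine ⟨2 * e, ?_, ?_⟩
      · rw [List.length_cons, pow_succ]
        omega
      · rw [nfG]
        have e1 : 2 * e % 2 = 0 := by omega
        have e2 : 2 * e / 2 = e := by omega
        rw [e1, e2]
        simp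
    · obtain ⟨e, he, rfl⟩ := ih h0 hk
      refine ⟨2 * e + 1, ?_, ?_⟩
      · rw [List.length_cons, pow_succ]
        omega
      · rw [nfG]
        have e1 : (2 * e + 1) % 2 = 1 := by omega
        have e2 : (2 * e + 1) / 2 = e := by omega
        rw [e1, e2]
        simp

/-- The chain of non-memberships. -/
def Strict : List G → Prop
  | [] => True
  | x :: xs => Strict xs ∧ x ∉ clL xs

/-- The order. -/
theorem card_clL [Finite G] {L : List G} (h : PC L) (hs : Strict L) : Nat.card (clL L) = 2 ^ L.length := by
  induction L with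
  | nil =>
    have : clL ([] : List G) = ⊥ := by simp [clL]
    rw [this]
    simp
  | cons x xs ih =>
    obtain ⟨h0, h1, h2⟩ := h
    obtain ⟨s0, s1⟩ := hs
    rw [List.length_cons, pow_succ, ← ih h0 s0]
    have hx : x ∈ clL (x :: xs) := mem_clL_of_mem (List.mem_cons_self)
    let f : Bool × clL xs → clL (x :: xs) := fun q =>
      ⟨(if q.1 then x else 1) * q.2.1, by
        apply Subgroup.mul_mem
        · split_ifs
          · exact hx
          · exact Subgroup.one_mem _
        · exact clL_mono x xs q.2.2⟩
    have hbij : Function.Bijective f := by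
      constructor
      · rintro ⟨a, u⟩ ⟨b, v⟩ he
        have he' : (if a then x else 1) * u.1 = (if b then x else 1) * v.1 := congrArg Subtype.val he
        cases a <;> cases b <;> simp only [if_true, if_false, Bool.false_eq_true, one_mul] at he'
        · have : u = v := Subtype.ext he'
          rw [this]
        · exfalso
          apply s1
          have e : x = u.1 * v.1⁻¹ := by rw [he']; group
          rw [e]
          exact Subgroup.mul_mem _ u.2 (Subgroup.inv_mem _ v.2)
        · exfalso
          apply s1
          have e : x = v.1 * u.1⁻¹ := by rw [← he']; group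
          rw [e]
          exact Subgroup.mul_mem _ v.2 (Subgroup.inv_mem _ u.2)
        · have : u = v := Subtype.ext (mul_left_cancel he')
          rw [this]
      · rintro ⟨g, hg⟩
        rcases step_mem h1 h2 hg with hk | ⟨k, hk, e⟩
        · exact ⟨(false, ⟨g, hk⟩), Subtype.ext (by simp [f])⟩
        · exact ⟨(true, ⟨k, hk⟩), Subtype.ext (by simp [f, e])⟩
    rw [← Nat.card_congr (Equiv.ofBijective f hbij), Nat.card_prod]
    simp [mul_comm]

end Cfsg.Agent.Lib.ThreeT.F22.O8.Out.PcAbs
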