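import Cfsg.Agent.Lib.ThreeT.F22.O8.Out.Fix
import Cfsg.Agent.Lib.ThreeT.F22.O8.Out.PcAbs
import Cfsg.Agent.Lib.ThreeT.F22.O8.Out.PcData

/-!
# A Sylow `2`-subgroup of `Fi₂₂` by normal forms
-/

set_option autoImplicit false
set_option linter.style.haveILetI false
set_option linter.unusedSectionVars false
set_option linter.unusedVariables false
set_option linter.style.longLine false
set_option linter.unnecessarySimpa false
set_option maxRecDepth 1000000

namespace Cfsg.Agent.Lib.ThreeT.F22.O8.Out

open Cfsg Cfsg.Agent.Lib.TC.Core Cfsg.Agent.Lib.TC.Pres Cfsg.Agent.Lib.TC.Chain Cfsg.Agent.Lib.TC.Chain.PermLev Cfsg.Agent.Lib.TC.G.Fi22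
  Cfsg.Agent.Lib.TC.D.Fi22b.Tab Cfsg.Agent.Lib.TC.D.Fi22b.Ok
  Cfsg.Agent.Lib.ThreeT.F22.Sift Cfsg.Agent.Lib.ThreeT.F22.Act Cfsg.Agent.Lib.ThreeT.F22.PLoc
  Cfsg.Agent.Lib.ThreeT.F22.Cnt Cfsg.Agent.Lib.ThreeT.F22.DPts Cfsg.Agent.Lib.ThreeT.F22.D5
  Cfsg.Agent.Lib.ThreeT.F22.M5 Cfsg.Agent.Lib.ThreeT.F22.O8 PcAbs PcD

/-- The base. -/
def BS : List Nat := [0, 26, 1, 4, 18, 13]

/-- All numbers in a binary range. -/
def rngAll (f : Nat → Bool) : Nat → Nat → Bool
  | 0, lo => f lo
  | d + 1, lo => rngAll f d lo && rngAll f d (lo + 2 ^ d)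

theorem rngAll_spec {f : Nat → Bool} {d lo : Nat} (h : rngAll f d lo = true) {e : Nat} (h1 : lo ≤ e) (h2 : e < lo + 2 ^ d) : f e = true := by
  induction d generalizing lo with
  | zero =>
    have : e = lo := by simp at h2; omega
    subst this
    exact h
  | succ d ih =>
    simp only [rngAll, Bool.and_eq_true] at h
    by_cases h3 : e < lo + 2 ^ d
    · exact ih h.1 h1 h3
    · refine ih h.2 (by omega) ?_
      rw [pow_succ] at h2
      omega

/-- Evaluation of a normal form on a point, on tables. -/
def ev : List Nat → Nat → Nat → Nat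
  | [], _, p => p
  | T :: Ts, e, p => (fun q => bif Nat.beq (e % 2) 1 then lk T q else q) (ev Ts (e / 2) p)

/-- A table of an element. -/
def TB (x : Γ) (T : Nat) : Prop := ∀ p : Fin pt.n, (phi x p).1 = lk T p.1

theorem ev_spec {XS : List Γ} {TS : List Nat} (h : List.Forall₂ TB XS TS) (e : Nat) (p : Fin pt.n) :
    (phi (nfG XS e) p).1 = ev TS e p.1 := by
  induction h generalizing e with
  | nil => simp [nfG, ev]
  | @cons x T xs Ts hx _ ih =>
    rw [nfG, ev, map_mul, Equiv.Perm.mul_apply]
    by_cases he : e % 2 = 1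
    · have hb : Nat.beq (e % 2) 1 = true := by rw [he]; rfl
      rw [if_pos he]
      show (phi x (phi (nfG xs (e / 2)) p)).1 = bif Nat.beq (e % 2) 1 then lk T (ev Ts (e / 2) p.1) else ev Ts (e / 2) p.1
      rw [hb, hx, ih]
      rfl
    · have hb : Nat.beq (e % 2) 1 = false := by
        have : e % 2 = 0 := by omega
        rw [this]
        rfl
      rw [if_neg he]
      show ((phi 1) (phi (nfG xs (e / 2)) p)).1 = bif Nat.beq (e % 2) 1 then lk T (ev Ts (e / 2) p.1) else ev Ts (e / 2) p.1
      rw [hb, map_one, Equiv.Perm.one_apply, ih]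
      rfl

/-- The base determines an element. -/
theorem eq_of_base {u v : Γ} {fu fv : Nat → Nat} (hu : ∀ p : Fin pt.n, (phi u p).1 = fu p.1) (hv : ∀ p : Fin pt.n, (phi v p).1 = fv p.1)
    (h : BS.all (fun b => Nat.beq (fu b) (fv b)) = true) : u = v := by
  have key : ∀ b ∈ BS, ∀ i : Fin pt.n, i.1 = b → phi u i = phi v i := by
    intro b hb i hi
    have h1 := Nat.eq_of_beq_eq_true (List.all_eq_true.1 h b hb)
    apply Fin.ext
    rw [hu, hv, hi, h1]
  have h5 : v⁻¹ * u = 1 := by
    apply ch.eq_one
    · rw [map_mul, map_inv, Equiv.Perm.mul_apply, key 0 (by simp [BS]) 0 rfl]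
      simp
    · intro lv hlv i hi
      rw [map_mul, map_inv, Equiv.Perm.mul_apply]
      have hm : lv.p ∈ BS := by
        have : levels.map Lev.p = [26, 1, 4, 18, 13] := by decide +kernel
        have h2 : lv.p ∈ levels.map Lev.p := List.mem_map_of_mem hlv
        rw [this] at h2
        exact List.mem_cons_of_mem _ h2
      rw [key _ hm i hi]
      simp
  exact (inv_mul_eq_one.1 h5).symm

/-! ### The tables are right -/

/-- Checks of tables. -/
noncomputable def tbChk : List (List Nat) → List Nat → Bool
  | [], [] => true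
  | w :: ws, T :: Ts => w.all (fun z => Nat.blt z 9) && rngAll (fun x => !(Nat.blt x 3510) || Nat.beq (pt.val w x) (lk T x)) 12 0 && tbChk ws Ts
  | _, _ => false

theorem tb_spec {ws : List (List Nat)} {Ts : List Nat} (h : tbChk ws Ts = true) : List.Forall₂ TB (ws.map wv) Ts := by
  induction ws generalizing Ts with
  | nil =>
    cases Ts with
    | nil => exact List.Forall₂.nil
    | cons T Ts => simp [tbChk] at h
  | cons w ws ih =>
    cases Ts with
    | nil => simp [tbChk] at h
    | cons T Ts =>
      simp only [tbChk, Bool.and_eq_true] at h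
      refine List.Forall₂.cons ?_ (ih h.2)
      intro p
      have h1 : ∀ z ∈ w, z < pt.k := by
        intro z hz
        have := List.all_eq_true.1 h.1.1 z hz
        have h3 : z < 9 := by simpa [Nat.blt] using this
        exact h3
      rw [phi_val h1]
      have h2 := rngAll_spec h.1.2 (e := p.1) (Nat.zero_le _) (lt_of_lt_of_le p.2 (by decide))
      have h3 : Nat.blt p.1 3510 = true := by
        have h4 : p.1 < 3510 := p.2
        simpa [Nat.blt] using h4
      rw [h3] at h2
      simp only [Bool.not_true, Bool.false_or] at h2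
      exact Nat.eq_of_beq_eq_true h2

theorem htb : tbChk xwL tL = true := by decide +kernel

/-- The generators. -/
noncomputable def XL : List Γ := xwL.map wv

theorem hXT : List.Forall₂ TB XL tL := tb_spec htb

theorem ev_XL (e : Nat) (p : Fin pt.n) : (phi (nfG XL e) p).1 = ev tL e p.1 := ev_spec hXT e p

/-! ### The relations -/

/-- The check of conjugates. -/
def cjOK (T : Nat) (Ts0 : List Nat) : List Nat → List Nat → Bool
  | [], _ => true
  | U :: Us, w :: ws => BS.all (fun b => Nat.beq (lk T (lk U b)) (ev Ts0 w (lk T b))) && cjOK T Ts0 Us ws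
  | _ :: _, [] => false

/-- The check of the relations. -/
def pcChk : List Nat → List (Nat × List Nat) → Bool
  | [], _ => true
  | T :: Ts, q :: rest => BS.all (fun b => Nat.beq (lk T (lk T b)) (ev Ts q.1 b)) && cjOK T Ts Ts q.2 && pcChk Ts rest
  | _ :: _, [] => false

theorem cj_spec {x : Γ} {T : Nat} (hx : TB x T) {xs : List Γ} {Ts0 : List Nat} (h0 : List.Forall₂ TB xs Ts0)
    {YS : List Γ} {US : List Nat} (hY : List.Forall₂ TB YS US) {ws : List Nat} (h : cjOK T Ts0 US ws = true) :
    ∀ y ∈ YS, x * y * x⁻¹ ∈ clL xs := by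
  induction hY generalizing ws with
  | nil => simp
  | @cons y U ys Us hy _ ih =>
    cases ws with
    | nil => simp [cjOK] at h
    | cons w ws =>
      simp only [cjOK, Bool.and_eq_true] at h
      intro z hz
      rcases List.mem_cons.1 hz with rfl | hz
      · have e : x * z = nfG xs w * x := by
          apply eq_of_base (fu := fun p => lk T (lk U p)) (fv := fun p => ev Ts0 w (lk T p))
          · intro p
            rw [map_mul, Equiv.Perm.mul_apply, hx, hy]
          · intro p
            rw [map_mul, Equiv.Perm.mul_apply, ev_spec h0, hx]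
          · exact h.1
        rw [e, mul_inv_cancel_right]
        exact nf_mem _ _
      · exact ih h.2 z hz

theorem pc_spec {XS : List Γ} {TS : List Nat} (hX : List.Forall₂ TB XS TS) {W : List (Nat × List Nat)} (h : pcChk TS W = true) : PC XS := by
  induction hX generalizing W with
  | nil => trivial
  | @cons x T xs Ts hx h0 ih =>
    cases W with
    | nil => simp [pcChk] at h
    | cons q rest =>
      simp only [pcChk, Bool.and_eq_true] at h
      refine ⟨ih h.2, cj_spec hx h0 h0 h.1.2, ?_⟩
      have e : x * x = nfG xs q.1 := by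
        apply eq_of_base (fu := fun p => lk T (lk T p)) (fv := fun p => ev Ts q.1 p)
        · intro p
          rw [map_mul, Equiv.Perm.mul_apply, hx, hx]
        · intro p
          rw [ev_spec h0]
        · exact h.1.1
      rw [e]
      exact nf_mem _ _

theorem hpc : pcChk tL wsL = true := by decide +kernel

theorem PC_XL : PC XL := pc_spec hXT hpc

/-! ### The order -/

/-- The invariance of a set under tables. -/
def presChk (Ts : List Nat) (O : List Nat) : Bool :=
  O.all (fun o => Nat.blt o 3510) && Ts.all (fun U => O.all (fun o => O.contains (lk U o)) && O.all (fun o => O.any (fun o' => Nat.beq (lk U o') o)))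

/-- The check of strictness. -/
def strictChk : List Nat → List (Nat × List Nat) → Bool
  | [], _ => true
  | T :: Ts, q :: rest => presChk Ts q.2 && q.2.contains q.1 && !(q.2.contains (lk T q.1)) && strictChk Ts rest
  | _ :: _, [] => false

/-- The stabilizer of a set of points. -/
def stabO (O : List Nat) : Subgroup Γ where
  carrier := {g | ∀ p : Fin pt.n, (phi g p).1 ∈ O ↔ p.1 ∈ O}
  one_mem' := by
    intro p
    simp
  mul_mem' := by
    intro a b ha hb p
    rw [map_mul, Equiv.Perm.mul_apply, ha, hb]
  inv_mem' := by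
    intro a ha p
    have h := ha (phi a⁻¹ p)
    rw [← Equiv.Perm.mul_apply, ← map_mul] at h
    simp only [mul_inv_cancel, map_one, Equiv.Perm.one_apply] at h
    exact h.symm

theorem mem_stabO {y : Γ} {U : Nat} (hy : TB y U) {O : List Nat} (h1 : O.all (fun o => Nat.blt o 3510) = true)
    (h2 : O.all (fun o => O.contains (lk U o)) = true) (h3 : O.all (fun o => O.any (fun o' => Nat.beq (lk U o') o)) = true) : y ∈ stabO O := by
  intro p
  constructor
  · intro hp
    have h4 := List.all_eq_true.1 h3 _ hp
    obtain ⟨o', ho', e⟩ := List.any_eq_true.1 h4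
    have e1 : lk U o' = (phi y p).1 := Nat.eq_of_beq_eq_true e
    have hlt : o' < 3510 := by simpa [Nat.blt] using List.all_eq_true.1 h1 o' ho'
    have e2 := hy ⟨o', hlt⟩
    have e3 : phi y ⟨o', hlt⟩ = phi y p := Fin.ext (by rw [e2]; exact e1)
    have e4 : (⟨o', hlt⟩ : Fin pt.n) = p := (phi y).injective e3
    rw [← e4]
    exact ho'
  · intro hp
    have h4 := List.all_eq_true.1 h2 _ hp
    rw [hy]
    exact List.contains_iff_mem.1 h4

theorem forall2_mem {XS : List Γ} {TS : List Nat} (h : List.Forall₂ TB XS TS) {y : Γ} (hy : y ∈ XS) : ∃ U ∈ TS, TB y U := by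
  induction h with
  | nil => simp at hy
  | @cons x T xs Ts hx _ ih =>
    rcases List.mem_cons.1 hy with rfl | hy
    · exact ⟨T, List.mem_cons_self, hx⟩
    · obtain ⟨U, hU, hyU⟩ := ih hy
      exact ⟨U, List.mem_cons_of_mem _ hU, hyU⟩

theorem strict_spec {XS : List Γ} {TS : List Nat} (hX : List.Forall₂ TB XS TS) {W : List (Nat × List Nat)} (h : strictChk TS W = true) : Strict XS := by
  induction hX generalizing W with
  | nil => trivial
  | @cons x T xs Ts hx h0 ih =>
    cases W with
    | nil => simp [strictChk] at h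
    | cons q rest =>
      simp only [strictChk, Bool.and_eq_true, Bool.not_eq_true'] at h
      refine ⟨ih h.2, ?_⟩
      obtain ⟨⟨⟨h1, h2⟩, h3⟩, _⟩ := h
      simp only [presChk, Bool.and_eq_true] at h1
      intro hm
      have hle : clL xs ≤ stabO q.2 := by
        rw [clL, Subgroup.closure_le]
        intro y hy
        obtain ⟨U, hU, hyU⟩ := forall2_mem h0 hy
        have hU' := List.all_eq_true.1 h1.2 U hU
        simp only [Bool.and_eq_true] at hU'
        exact mem_stabO hyU h1.1 hU'.1 hU'.2
      have h4 := hle hm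
      have hc : q.1 ∈ q.2 := List.contains_iff_mem.1 h2
      have hlt : q.1 < 3510 := by simpa [Nat.blt] using List.all_eq_true.1 h1.1 q.1 hc
      have h5 := (h4 ⟨q.1, hlt⟩).2 hc
      rw [hx] at h5
      have h6 : q.2.contains (lk T q.1) = true := List.contains_iff_mem.2 h5
      rw [h6] at h3
      simp at h3

theorem hstrict : strictChk tL invL = true := by decide +kernel

/-- The subgroup. -/
noncomputable def P0 : Subgroup Γ := clL XL

theorem XL_len : XL.length = 17 := by
  simp [XL, xwL]

theorem card_P0 : Nat.card P0 = 2 ^ 17 := by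
  have h := card_clL PC_XL (strict_spec hXT hstrict)
  rw [XL_len] at h
  exact h

theorem P0_nf {g : Γ} (hg : g ∈ P0) : ∃ e, g = nfG XL e := by
  obtain ⟨e, _, he⟩ := mem_nf PC_XL hg
  exact ⟨e, he⟩

/-! ### `σ` on points -/

theorem phi_sig (x : Γ) (p : Fin pt.n) : phi (sig x) p = sP (phi x (sP p)) := by
  apply dp_inj
  rw [← conj_dp]
  have h1 : dp p = sig (dp (sP p)) := by
    rw [sig_dp, sP_sP]
  rw [h1, ← map_inv, ← map_mul, ← map_mul, conj_dp, sig_dp]

/-- The check of the images under `σ`. -/
def sgChk : List Nat → List Nat → Bool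
  | [], _ => true
  | T :: Ts, e :: es => BS.all (fun b => Nat.beq (sN (lk T (sN b))) (ev tL e b)) && sgChk Ts es
  | _ :: _, [] => false

theorem sg_spec {XS : List Γ} {TS : List Nat} (hX : List.Forall₂ TB XS TS) {es : List Nat} (h : sgChk TS es = true) :
    ∀ x ∈ XS, sig x ∈ P0 := by
  induction hX generalizing es with
  | nil => simp
  | @cons x T xs Ts hx _ ih =>
    cases es with
    | nil => simp [sgChk] at h
    | cons e es =>
      simp only [sgChk, Bool.and_eq_true] at h
      intro y hy
      rcases List.mem_cons.1 hy with rfl | hy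
      · have e1 : sig y = nfG XL e := by
          apply eq_of_base (fu := fun p => sN (lk T (sN p))) (fv := fun p => ev tL e p)
          · intro p
            rw [phi_sig, sP_val, hx]
            rfl
          · intro p
            rw [ev_XL]
          · exact h.1
        rw [e1]
        exact nf_mem _ _
      · exact ih h.2 y hy

theorem hsg : sgChk tL sgL = true := by decide +kernel

theorem sig_P0 {g : Γ} (hg : g ∈ P0) : sig g ∈ P0 := by
  have h1 : P0 ≤ P0.comap sig.toMonoidHom := by
    show clL XL ≤ _
    rw [clL, Subgroup.closure_le]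
    intro y hy
    exact sg_spec hXT hsg y hy
  exact h1 hg

end Cfsg.Agent.Lib.ThreeT.F22.O8.Out
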