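import Cfsg.Agent.Lib.ThreeT.F22.O8.Out.SData

/-!
# The outer automorphism `σ` of `Fi₂₂`

It is given on the letters by the permutation `sN` of the points; its fixed subgroup is `I8`.
-/

set_option autoImplicit false
set_option linter.style.haveILetI false
set_option linter.unusedSectionVars false
set_option linter.unusedVariables false
set_option linter.style.longLine false
set_option linter.unnecessarySimpa false
set_option maxRecDepth 1000000

namespace Cfsg.Agent.Lib.ThreeT.F22.O8.Out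

open Cfsg Cfsg.Agent.Lib.TC.Core Cfsg.Agent.Lib.TC.Pres Cfsg.Agent.Lib.TC.Chain Cfsg.Agent.Lib.TC.Chain.PermLev Cfsg.Agent.Lib.TC.G.Fi22
  Cfsg.Agent.Lib.TC.D.Fi22b.Tab Cfsg.Agent.Lib.TC.D.Fi22b.Ok
  Cfsg.Agent.Lib.ThreeT.F22.Sift Cfsg.Agent.Lib.ThreeT.F22.Act Cfsg.Agent.Lib.ThreeT.F22.PLoc
  Cfsg.Agent.Lib.ThreeT.F22.Cnt Cfsg.Agent.Lib.ThreeT.F22.DPts Cfsg.Agent.Lib.ThreeT.F22.D5
  Cfsg.Agent.Lib.ThreeT.F22.M5 Cfsg.Agent.Lib.ThreeT.F22.O8

/-! ### The numerical checks -/

theorem hs_lt : (List.range 3510).all (fun x => Nat.blt (sN x) 3510) = true := by decide +kernel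

theorem hs_inv : (List.range 3510).all (fun x => Nat.beq (sN (sN x)) x) = true := by decide +kernel

theorem sN_lt {x : Nat} (hx : x < 3510) : sN x < 3510 := by
  have h := List.all_eq_true.1 hs_lt x (List.mem_range.2 hx)
  simpa [Nat.blt] using h

theorem sN_sN {x : Nat} (hx : x < 3510) : sN (sN x) = x := by
  have h := List.all_eq_true.1 hs_inv x (List.mem_range.2 hx)
  exact Nat.eq_of_beq_eq_true h

/-- The permutation of the points. -/
def sP (p : Fin pt.n) : Fin pt.n := ⟨sN p.1, sN_lt p.2⟩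

theorem sP_val (p : Fin pt.n) : (sP p).1 = sN p.1 := rfl

theorem sP_sP (p : Fin pt.n) : sP (sP p) = p := Fin.ext (sN_sN p.2)

/-- The point of a letter. -/
def plP (z : Nat) : Fin pt.n := ⟨plL.getD z 0 % 3510, Nat.mod_lt _ (by decide)⟩

/-- The word of the image of a letter. -/
noncomputable def lw (z : Nat) : List Nat := tw (ptw (sN (plL.getD z 0)))

/-- The word of a letter's point. -/
noncomputable def lw0 (z : Nat) : List Nat := tw (ptw (plL.getD z 0))

theorem hptw_all : (List.range 3510).all (fun p => Nat.beq (pt.val (ptw p) 0) p && (ptw p).all (fun z => Nat.blt z 9)) = true := by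
  decide +kernel

theorem ptw_val {p : Nat} (hp : p < 3510) : pt.val (ptw p) 0 = p := by
  have h := List.all_eq_true.1 hptw_all p (List.mem_range.2 hp)
  simp only [Bool.and_eq_true] at h
  exact Nat.eq_of_beq_eq_true h.1

theorem ptw_lt {p : Nat} (hp : p < 3510) : ∀ z ∈ ptw p, z < pt.k := by
  have h := List.all_eq_true.1 hptw_all p (List.mem_range.2 hp)
  simp only [Bool.and_eq_true] at h
  intro z hz
  have h3 : z < 9 := by simpa [Nat.blt] using List.all_eq_true.1 h.2 z hz
  exact h3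

theorem wv_ptw_dp (p : Fin pt.n) : wv (tw (ptw p.1)) = dp p :=
  wv_tw_dp (ptw_lt p.2) (ptw_val p.2)

theorem hpl : ∀ z < 9, plL.getD z 0 < 3510 := by decide +kernel

theorem plP_val {z : Nat} (hz : z < 9) : (plP z).1 = plL.getD z 0 := Nat.mod_eq_of_lt (hpl z hz)

theorem wv_lw {z : Nat} (hz : z < 9) : wv (lw z) = dp (sP (plP z)) := by
  have h := wv_ptw_dp (sP (plP z))
  rw [sP_val, plP_val hz] at h
  exact h

theorem wv_lw0 {z : Nat} (hz : z < 9) : wv (lw0 z) = dp (plP z) := by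
  have h := wv_ptw_dp (plP z)
  rw [plP_val hz] at h
  exact h

/-- The image of a word of letters. -/
noncomputable def sw (l : List Nat) : List Nat := l.flatMap lw

theorem hletters : ∀ z < 9, wordEqB levels [z] (lw0 z) = true := by decide +kernel

theorem hrels : ∀ l ∈ rels, wordEqB levels (sw l) [] = true := by decide +kernel

theorem hnorm : (List.range 9).all (fun z => (fun w => (List.range 3510).all (fun x => Nat.beq (pt.val w (sN x)) (sN (pt.val [z] x)))) (lw z)) = true := by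
  decide +kernel

/-- The images of the letters. -/
noncomputable def Fz (z : Nat) : Γ := if z < 9 then wv (lw z) else 1

theorem Fz_eq {z : Nat} (hz : z < 9) : Fz z = dp (sP (plP z)) := by
  rw [Fz, if_pos hz, wv_lw hz]

theorem E_eq {z : Nat} (hz : z < 9) : K.E Cfsg.Agent.Lib.TC.G.Fi22.Rel z = dp (plP z) := by
  have h := ch.word_eq (hletters z hz)
  rw [wv_lw0 hz] at h
  rw [← h]
  simp [wv]

theorem Fz_sq (z : Nat) : Fz z * Fz z = 1 := by
  by_cases hz : z < 9
  · rw [Fz_eq hz]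
    exact dp_sq _
  · rw [Fz, if_neg hz]
    simp

theorem prodA_Fz (l : List Nat) (hl : ∀ z ∈ l, z < 9) : prodA Fz l = wv (sw l) := by
  induction l with
  | nil => simp [sw, wv]
  | cons z l ih =>
    have hz : z < 9 := hl z (by simp)
    have h1 : sw (z :: l) = lw z ++ sw l := by simp [sw]
    rw [prodA_cons, ih (fun y hy => hl y (by simp [hy])), h1, wv_append, Fz, if_pos hz]

theorem rels_lt : ∀ l ∈ rels, ∀ z ∈ l, z < 9 := by decide +kernel

theorem prodA_rels {l : List Nat} (hl : l ∈ rels) : prodA Fz l = 1 := by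
  rw [prodA_Fz l (rels_lt l hl), ch.word_eq (hrels l hl)]
  simp [wv]

theorem inv_col (x : Cfsg.Spor.Fi22.Gen) : K.inv (K.col x) = K.col x := by
  cases x <;> rfl

theorem lift_rel (r : FreeGroup Cfsg.Spor.Fi22.Gen) (hr : r ∈ Cfsg.Agent.Lib.TC.G.Fi22.Rel) : FreeGroup.lift (fun x => Fz (K.col x)) r = 1 := by
  obtain ⟨L, rfl, j, hj⟩ := ok.hR r hr
  have hF : ∀ x, Fz (K.inv (K.col x)) = (Fz (K.col x))⁻¹ := by
    intro x
    rw [inv_col]
    exact eq_inv_of_mul_eq_one_left (Fz_sq _)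
  rw [Cols.lift_mk_eq Fz hF L]
  have h1 := prodA_rels hj
  rw [rotN, prodA_append] at h1
  have h2 : prodA Fz (K.word L) = prodA Fz ((K.word L).drop j) * prodA Fz ((K.word L).take j) := by
    conv_lhs => rw [← List.take_append_drop j (K.word L), prodA_append]
  rw [h2]
  have h3 := eq_inv_of_mul_eq_one_right h1
  rw [h3]
  group

/-- The endomorphism. -/
noncomputable def sig0 : Γ →* Γ := PresentedGroup.toGroup (f := fun x => Fz (K.col x)) lift_rel

theorem sig0_E {z : Nat} (hz : z < 9) : sig0 (K.E Cfsg.Agent.Lib.TC.G.Fi22.Rel z) = Fz z := by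
  have hk : z < K.k := hz
  have hs : K.sgn z = true := by
    rcases (show z = 0 ∨ z = 1 ∨ z = 2 ∨ z = 3 ∨ z = 4 ∨ z = 5 ∨ z = 6 ∨ z = 7 ∨ z = 8 by omega) with rfl | rfl | rfl | rfl | rfl | rfl | rfl | rfl | rfl <;> rfl
  have h := ok.hK.col_gen z hk hs
  conv_lhs => rw [← h]
  conv_rhs => rw [← h]
  rw [Cols.E_col ok.hK]
  exact PresentedGroup.toGroup.of _

theorem phi_lw {z : Nat} (hz : z < 9) (x : Fin pt.n) : phi (Fz z) (sP x) = sP (phi (K.E Cfsg.Agent.Lib.TC.G.Fi22.Rel z) x) := by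
  have hw : ∀ y ∈ lw z, y < pt.k := by
    have h := ptw_lt (p := sN (plL.getD z 0)) (sN_lt (hpl z hz))
    intro y hy
    have : lw z = tw (ptw (sN (plL.getD z 0))) := rfl
    rw [this] at hy
    simp only [tw, List.mem_append, List.mem_reverse, List.mem_cons, List.not_mem_nil, or_false] at hy
    rcases hy with (hy | rfl) | hy
    · exact h y hy
    · decide
    · exact h y hy
  have h1 := List.all_eq_true.1 hnorm z (List.mem_range.2 hz)
  have h2 := List.all_eq_true.1 h1 x.1 (List.mem_range.2 x.2)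
  have h3 : pt.val (lw z) (sN x.1) = sN (pt.val [z] x.1) := Nat.eq_of_beq_eq_true h2
  apply Fin.ext
  rw [Fz, if_pos hz, phi_val hw, sP_val, sP_val, h3]
  have h4 := phi_val (w := [z]) (by intro y hy; simp at hy; subst hy; exact hz) x
  have h5 : wv [z] = K.E Cfsg.Agent.Lib.TC.G.Fi22.Rel z := by simp [wv]
  rw [h5] at h4
  rw [h4]

theorem sig0_step {x : Fin pt.n} (h : sig0 (dp x) = dp (sP x)) {z : Nat} (hz : z < 9) :
    sig0 (dp (phi (K.E Cfsg.Agent.Lib.TC.G.Fi22.Rel z) x)) = dp (sP (phi (K.E Cfsg.Agent.Lib.TC.G.Fi22.Rel z) x)) := by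
  rw [← conj_dp, map_mul, map_mul, map_inv, sig0_E hz, h, conj_dp, phi_lw hz]

theorem sig0_word (w : List Nat) (hw : ∀ z ∈ w, z < 9) (x : Fin pt.n) (h : sig0 (dp x) = dp (sP x)) :
    sig0 (dp (phi (wv w) x)) = dp (sP (phi (wv w) x)) := by
  induction w generalizing x with
  | nil =>
    have : wv [] = 1 := by simp [wv]
    rw [this, map_one]
    exact h
  | cons z l ih =>
    have hz : z < 9 := hw z (by simp)
    have h1 : wv (z :: l) = wv l * K.E Cfsg.Agent.Lib.TC.G.Fi22.Rel z := by simp [wv]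
    rw [h1, map_mul, Equiv.Perm.mul_apply]
    exact ih (fun y hy => hw y (by simp [hy])) _ (sig0_step h hz)

theorem plP0 : plP 0 = 0 := by
  apply Fin.ext
  rw [plP_val (by decide)]
  decide +kernel

/-- `σ` on the class. -/
theorem sig0_dp (p : Fin pt.n) : sig0 (dp p) = dp (sP p) := by
  have h0 : sig0 (dp 0) = dp (sP 0) := by
    have h1 := E_eq (z := 0) (by decide)
    rw [plP0] at h1
    rw [← h1, sig0_E (by decide), Fz_eq (by decide), plP0]
  have h1 := sig0_word (ptw p.1) (fun z hz => ptw_lt p.2 z hz) 0 h0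
  have h2 : phi (wv (ptw p.1)) 0 = p := by
    apply Fin.ext
    rw [phi_val (ptw_lt p.2)]
    exact ptw_val p.2
  rwa [h2] at h1

theorem sig0_sig0_E {z : Nat} (hz : z < 9) : sig0 (sig0 (K.E Cfsg.Agent.Lib.TC.G.Fi22.Rel z)) = K.E Cfsg.Agent.Lib.TC.G.Fi22.Rel z := by
  rw [sig0_E hz, Fz_eq hz, sig0_dp, sP_sP, E_eq hz]

theorem sig0_sig0 : sig0.comp sig0 = MonoidHom.id Γ := by
  apply PresentedGroup.ext
  intro x
  have h := sig0_sig0_E (z := K.col x) (ok.hK.col_lt x)
  rw [Cols.E_col ok.hK] at h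
  exact h

/-- The automorphism `σ`. -/
noncomputable def sig : MulAut Γ := MonoidHom.toMulEquiv sig0 sig0 sig0_sig0 sig0_sig0

theorem sig_apply (g : Γ) : sig g = sig0 g := rfl

theorem sig_dp (p : Fin pt.n) : sig (dp p) = dp (sP p) := sig0_dp p

theorem sig_sig (g : Γ) : sig (sig g) = g := DFunLike.congr_fun sig0_sig0 g

theorem sig_sq : sig * sig = 1 := by
  ext g
  exact sig_sig g

/-! ### The class is faithful on points -/

theorem dp_inj {p q : Fin pt.n} (h : dp p = dp q) : p = q := by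
  obtain ⟨k, hk⟩ := phi_trans p
  obtain ⟨l, hl⟩ := phi_trans q
  have h1 : k * a0 * k⁻¹ = l * a0 * l⁻¹ := by
    rw [dp_eq hk, dp_eq hl, h]
  have h2 : (l⁻¹ * k) * a0 = a0 * (l⁻¹ * k) := by
    have : a0 = l⁻¹ * (l * a0 * l⁻¹) * l := by group
    calc (l⁻¹ * k) * a0 = l⁻¹ * (k * a0 * k⁻¹) * k := by group
      _ = l⁻¹ * (l * a0 * l⁻¹) * k := by rw [h1]
      _ = a0 * (l⁻¹ * k) := by group
  have h3 := (fix_iff _).2 h2
  rw [map_mul, map_inv, Equiv.Perm.mul_apply, hk, Equiv.Perm.inv_eq_iff_eq, hl] at h3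
  exact h3

theorem sig_fix_dp {p : Fin pt.n} : sig (dp p) = dp p ↔ sP p = p := by
  rw [sig_dp]
  exact ⟨dp_inj, fun h => by rw [h]⟩

/-! ### The fixed subgroup -/

/-- The fixed subgroup. -/
noncomputable def FixS : Subgroup Γ := sig0.eqLocus (MonoidHom.id Γ)

theorem mem_FixS {g : Γ} : g ∈ FixS ↔ sig g = g := Iff.rfl

theorem hgvS : ∀ a ∈ gvL, sN (bt a) = bt a := by decide +kernel

theorem hddS : sN 1265 = 1265 := by decide +kernel

theorem dd_eq : dd = dp ⟨1265, by decide⟩ := by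
  rw [dd, dw_tw]
  exact wv_ptw_dp ⟨1265, by decide⟩

theorem I8_le_FixS : I8 ≤ FixS := by
  rw [I8, Subgroup.closure_le]
  rintro _ (⟨a, ha, rfl⟩ | h)
  · apply mem_FixS.2
    apply sig_fix_dp.2
    apply Fin.ext
    rw [sP_val, pB_val (hgv a ha).1 (hgv a ha).2]
    exact hgvS a ha
  · rw [Set.mem_singleton_iff.1 h, dd_eq]
    apply mem_FixS.2
    apply sig_fix_dp.2
    exact Fin.ext hddS

theorem sP_phi {g : Γ} (hg : g ∈ FixS) {p : Fin pt.n} (hp : sP p = p) : sP (phi g p) = phi g p := by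
  apply sig_fix_dp.1
  rw [← conj_dp, map_mul, map_mul, map_inv, mem_FixS.1 hg, sig_fix_dp.2 hp]

/-- Membership in the first component. -/
def isK0 (q : Nat) : Bool := (List.range 256).any (fun v => qt v && Nat.beq (bt v) q)

theorem isK0_spec {q : Nat} (h : isK0 q = true) : ∃ v, v < 256 ∧ qt v = true ∧ bt v = q := by
  obtain ⟨v, hv, h1⟩ := List.any_eq_true.1 h
  simp only [Bool.and_eq_true] at h1
  exact ⟨v, List.mem_range.1 hv, h1.1, Nat.eq_of_beq_eq_true h1.2⟩

/-- The fixed points are the three components. -/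
theorem hcomps : (List.range 3510).all (fun q => !(Nat.beq (sN q) q) || isK0 q || isK0 (pt.val dw q) || isK0 (pt.val (nw 17 ++ dw) q)) = true := by
  decide +kernel

theorem hdw : ∀ z ∈ dw, z < pt.k := by decide +kernel

theorem hn17 : ∀ z ∈ nw 17, z < pt.k := nw_lt (by decide) (by decide +kernel)

/-- Points outside the first component do not commute with it. -/
theorem hcross : (List.range 256).all (fun v => !(qt v) || (fun w => (List.range 3510).all (fun q => !(Nat.beq (sN q) q) || isK0 q || !(Nat.beq (pt.val w q) q))) (nw v)) = true := by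
  decide +kernel

/-- Connectivity. -/
theorem hconn : ∀ x < 256, qt x = true → ∃ y < 256, qt y = true ∧ tf 17 y = y ∧ tf y x = x := by
  decide +kernel

end Cfsg.Agent.Lib.ThreeT.F22.O8.Out
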