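import Cfsg.Agent.Lib.ThreeT.F22.O8.Aut
import Cfsg.Agent.Lib.Classical.SympForm
import Cfsg.Agent.Lib.Schur.Sp62.Main

/-!
# The centralizer of a reflection in `Aut(Ω₈⁺(2))` inside `Fi₂₂`

The centralizer of `c0` in `I8` is `2 × Sp₆(2)`.
-/

set_option autoImplicit false
set_option linter.style.haveILetI false
set_option linter.unusedSectionVars false
set_option linter.unusedVariables false
set_option linter.style.longLine false
set_option linter.unnecessarySimpa false
set_option maxRecDepth 1000000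

namespace Cfsg.Agent.Lib.ThreeT.F22.O8.Out

open Cfsg Cfsg.Agent.Lib.TC.Core Cfsg.Agent.Lib.TC.Chain Cfsg.Agent.Lib.TC.Chain.PermLev Cfsg.Agent.Lib.TC.D.Fi22b.Tab
  Cfsg.Agent.Lib.ThreeT.F22.Sift Cfsg.Agent.Lib.ThreeT.F22.Act Cfsg.Agent.Lib.ThreeT.F22.PLoc
  Cfsg.Agent.Lib.ThreeT.F22.Cnt Cfsg.Agent.Lib.ThreeT.F22.DPts Cfsg.Agent.Lib.ThreeT.F22.D5
  Cfsg.Agent.Lib.ThreeT.F22.M5
open Cfsg.Agent.Lib.ThreeT.H1Orth Cfsg.Agent.Lib.Orth.Forms Cfsg.Agent.Lib.Orth.Refl Cfsg.Agent.Lib.Orth.Bridge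
  Cfsg.Agent.Lib.Orth.Closure Cfsg.Agent.Lib.Witt.Quadratic QuadraticMap Matrix
open Cfsg.Agent.Lib.ThreeT.F22.O8
open Cfsg.Agent.Lib.Classical.SympForm

namespace StabAux

/-! ### Index three -/

section abstract

variable {G : Type*} [Group G]

/-- If three elements are in distinct cosets of a subgroup of index three, they give all the cosets. -/
theorem cover_three [Finite G] {A B : Subgroup G} (h : A ≤ B) (a b : G) (ha : a ∈ B) (hb : b ∈ B) (h1 : a ∉ A) (h2 : b ∉ A)
    (h3 : a⁻¹ * b ∉ A) (hc : Nat.card B = 3 * Nat.card A) (g : G) (hg : g ∈ B) :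
    g ∈ A ∨ a⁻¹ * g ∈ A ∨ b⁻¹ * g ∈ A := by
  let K : Subgroup B := A.subgroupOf B
  have hK : Nat.card K = Nat.card A := Nat.card_congr (Subgroup.subgroupOfEquivOfLe h).toEquiv
  have hm := Subgroup.card_mul_index K
  have hApos : 0 < Nat.card A := Nat.card_pos
  have hidx : K.index = 3 := by
    rw [hK, hc] at hm
    exact Nat.eq_of_mul_eq_mul_left hApos (by rw [hm]; ring)
  let f : Fin 3 → B ⧸ K := ![((1 : B) : B ⧸ K), ((⟨a, ha⟩ : B) : B ⧸ K), ((⟨b, hb⟩ : B) : B ⧸ K)]
  have hf : Function.Injective f := by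
    intro i j hij
    fin_cases i <;> fin_cases j <;> first
      | rfl
      | (exfalso
         simp only [f, Fin.zero_eta, Fin.mk_one, Fin.reduceFinMk, Matrix.cons_val] at hij
         first
           | (have := QuotientGroup.eq.1 hij
              simp only [K, Subgroup.mem_subgroupOf, inv_one, one_mul, InvMemClass.coe_inv, MulMemClass.coe_mul, mul_one] at this
              first
                | exact h1 this
                | exact h2 this
                | exact h3 this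
                | exact h1 (by simpa using this)
                | exact h2 (by simpa using this)
                | exact h3 (by
                    have h4 := A.inv_mem this
                    simpa [_root_.mul_inv_rev] using h4)))
  have hb2 : Function.Bijective f := by
    rw [Nat.bijective_iff_injective_and_card]
    refine ⟨hf, ?_⟩
    rw [Nat.card_fin]
    exact hidx.symm
  obtain ⟨i, hi⟩ := hb2.2 ((⟨g, hg⟩ : B) : B ⧸ K)
  fin_cases i
  · left
    have := QuotientGroup.eq.1 hi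
    simpa [K, Subgroup.mem_subgroupOf] using this
  · right; left
    have := QuotientGroup.eq.1 hi
    simpa [K, Subgroup.mem_subgroupOf] using this
  · right; right
    have := QuotientGroup.eq.1 hi
    simpa [K, Subgroup.mem_subgroupOf] using this

end abstract

theorem card_I8_eq : Nat.card I8 = 3 * Nat.card I1 := by
  obtain ⟨e⟩ := I8_iso
  rw [Nat.card_congr e.toEquiv, card_aut_Om, card_I1', card_OO]
  ring

theorem hv17 : (17 : ℕ) < 256 ∧ qt 17 = true := by decide +kernel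

/-- `dd` moves the point of `c0` out of the 120 points. -/
theorem dd_not {h : Γ} (hh : h ∈ I1) : phi dd (pB 17) ≠ phi h (pB 17) := by
  intro e
  obtain ⟨y, hy, qy, e2⟩ := I1_pts hh hv17.1 hv17.2
  rw [e2] at e
  have h1 : (List.range 256).all (fun y => !qt y || !Nat.beq (pt.val dw (bt 17)) (bt y)) = true := by decide +kernel
  have h1' := List.all_eq_true.1 h1 y (List.mem_range.2 hy)
  rw [qy] at h1'
  have h2 := congrArg Fin.val e
  have hw : ∀ z ∈ dw, z < pt.k := by decide +kernel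
  rw [dd, phi_val hw, pB_val hv17.1 hv17.2, pB_val hy qy] at h2
  rw [h2] at h1'
  simp at h1'

theorem bb_eq : wv (dw ++ nw 17) = c0 * dd := by
  rw [wv_append, wv_nw hv17.1 hv17.2]
  rfl

theorem c0_fix : phi c0 (pB 17) = pB 17 := (comm_dp_iff _ _).1 rfl

/-- The stabilizer of the point of `c0` in `I8` lies in `I1`. -/
theorem stab_le_I1 {g : Γ} (hg : g ∈ I8) (hc : phi g (pB 17) = pB 17) : g ∈ I1 := by
  have hb : wv (dw ++ nw 17) ∈ I8 := by
    rw [bb_eq]
    exact I8.mul_mem (I1_le (dp_mem_I1 hv17.1 hv17.2)) dd_mem_I8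
  have hd1 : dd ∉ I1 := fun h => dd_not h rfl
  have hb1 : wv (dw ++ nw 17) ∉ I1 := by
    intro h
    rw [bb_eq] at h
    have h2 : dd ∈ I1 := by
      have := I1.mul_mem (dp_mem_I1 hv17.1 hv17.2) h
      have e : dp (pB 17) * (c0 * dd) = dd := by
        show c0 * (c0 * dd) = dd
        rw [← mul_assoc, show c0 * c0 = 1 from dp_sq _, one_mul]
      rwa [e] at this
    exact hd1 h2
  have hb2 : dd⁻¹ * wv (dw ++ nw 17) ∉ I1 := by
    rw [dd_inv]
    have e : dd * wv (dw ++ nw 17) = wv (dw ++ nw 17 ++ dw) := by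
      rw [wv_append (dw ++ nw 17) dw]
      rfl
    rw [e]
    exact not_I1 (by decide +kernel) (by decide +kernel)
  have key : ∀ h ∈ I1, phi (h * dd) (pB 17) = pB 17 → False := by
    intro h hh e
    rw [map_mul, Equiv.Perm.mul_apply] at e
    apply dd_not (I1.inv_mem hh)
    have h9 : phi h⁻¹ (pB 17) = phi dd (pB 17) := by
      conv_lhs => rw [← e]
      rw [← Equiv.Perm.mul_apply, ← map_mul, inv_mul_cancel, map_one, Equiv.Perm.one_apply]
    exact h9.symm
  rcases cover_three I1_le dd (wv (dw ++ nw 17)) dd_mem_I8 hb hd1 hb1 hb2 card_I8_eq g⁻¹ (I8.inv_mem hg) with h | h | h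
  · simpa using I1.inv_mem h
  · exfalso
    apply key _ (I1.inv_mem h)
    have e : (dd⁻¹ * g⁻¹)⁻¹ * dd = g * (dd * dd) := by group
    rw [e, dd_sq, mul_one]
    exact hc
  · exfalso
    rw [bb_eq] at h
    apply key _ (I1.inv_mem h)
    have e : ((c0 * dd)⁻¹ * g⁻¹)⁻¹ * dd = g * c0 * (dd * dd) := by group
    rw [e, dd_sq, mul_one, map_mul, Equiv.Perm.mul_apply, c0_fix]
    exact hc

/-! ### The vectors -/

/-- The complement of the first hyperbolic plane. -/
abbrev W : Type := Fin 3 ⊕ Fin 3 → ZMod 2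

/-- The coordinates of `W` inside `V`. -/
def lf : Fin 3 ⊕ Fin 3 → Fin 4 ⊕ Fin 4 := Sum.map Fin.succ Fin.succ

/-- The projection. -/
def pr (x : V) : W := fun i => x (lf i)

/-- The embedding. -/
def em (w : W) : V :=
  Sum.elim (Fin.cons 0 (fun j => w (Sum.inl j))) (Fin.cons 0 (fun j => w (Sum.inr j)))

@[simp] theorem em_inl0 (w : W) : em w (Sum.inl 0) = 0 := rfl
@[simp] theorem em_inr0 (w : W) : em w (Sum.inr 0) = 0 := rfl
@[simp] theorem em_inls (w : W) (j : Fin 3) : em w (Sum.inl j.succ) = w (Sum.inl j) := rfl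
@[simp] theorem em_inrs (w : W) (j : Fin 3) : em w (Sum.inr j.succ) = w (Sum.inr j) := rfl

@[simp] theorem pr_inl (x : V) (j : Fin 3) : pr x (Sum.inl j) = x (Sum.inl j.succ) := rfl
@[simp] theorem pr_inr (x : V) (j : Fin 3) : pr x (Sum.inr j) = x (Sum.inr j.succ) := rfl

@[simp] theorem pr_em (w : W) : pr (em w) = w := by
  ext (i | i) <;> rfl

theorem pr_add (x y : V) : pr (x + y) = pr x + pr y := rfl

theorem pr_smul (c : ZMod 2) (x : V) : pr (c • x) = c • pr x := rfl

/-- The vector of the reflection `c0`. -/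
abbrev v0 : V := dv 17

theorem v0_l0 : v0 (Sum.inl 0) = 1 := by decide +kernel
theorem v0_r0 : v0 (Sum.inr 0) = 1 := by decide +kernel
theorem v0_ls : ∀ j : Fin 3, v0 (Sum.inl j.succ) = 0 := by decide +kernel
theorem v0_rs : ∀ j : Fin 3, v0 (Sum.inr j.succ) = 0 := by decide +kernel

theorem pr_v0 : pr v0 = 0 := by
  ext (i | i)
  · exact v0_ls i
  · exact v0_rs i

/-- Explicit formula for the quadratic form. -/
theorem Q_apply (x : V) : QQ x = ∑ i : Fin 4, x (Sum.inl i) * x (Sum.inr i) := rfl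

/-- Explicit formula for the polar form. -/
theorem pol (x y : V) : polar QQ x y = ∑ i : Fin 4, (x (Sum.inl i) * y (Sum.inr i) + x (Sum.inr i) * y (Sum.inl i)) := by
  simp only [polar, Q_apply, Pi.add_apply, Fin.sum_univ_four]
  ring

theorem two0 : (2 : ZMod 2) = 0 := rfl

theorem pol_v0 (x : V) : polar QQ x v0 = x (Sum.inl 0) + x (Sum.inr 0) := by
  rw [pol, Fin.sum_univ_succ, Fin.sum_univ_three]
  simp only [v0_l0, v0_r0, v0_ls, v0_rs, mul_zero, mul_one, add_zero]

theorem perp_iff (x : V) : polar QQ x v0 = 0 ↔ x (Sum.inl 0) = x (Sum.inr 0) := by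
  rw [pol_v0]
  generalize x (Sum.inl 0) = a
  generalize x (Sum.inr 0) = b
  revert a b
  decide

/-- The symplectic form is the polar form on `v0`-perp. -/
theorem symp_pr (x y : V) (hx : x (Sum.inl 0) = x (Sum.inr 0)) (hy : y (Sum.inl 0) = y (Sum.inr 0)) :
    sympForm 3 (ZMod 2) (pr x) (pr y) = polar QQ x y := by
  rw [sympForm_eq_sum, pol, Fin.sum_univ_succ (n := 3), Fin.sum_univ_three, Fin.sum_univ_three]
  simp only [pr_inl, pr_inr, hx, hy]
  linear_combination (-(x (Sum.inr 0)) * y (Sum.inr 0) - x (Sum.inl (Fin.succ 0)) * y (Sum.inr (Fin.succ 0))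
    - x (Sum.inl (Fin.succ 1)) * y (Sum.inr (Fin.succ 1)) - x (Sum.inl (Fin.succ 2)) * y (Sum.inr (Fin.succ 2))) * two0

/-- The decomposition of `v0`-perp. -/
theorem decomp (x : V) (hx : x (Sum.inl 0) = x (Sum.inr 0)) : x = em (pr x) + x (Sum.inl 0) • v0 := by
  ext (i | i)
  · refine Fin.cases ?_ (fun j => ?_) i
    · simp [v0_l0]
    · simp [v0_ls]
  · refine Fin.cases ?_ (fun j => ?_) i
    · simp [v0_r0, hx]
    · simp [v0_rs]

theorem em_perp (w : W) : em w (Sum.inl 0) = em w (Sum.inr 0) := rfl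

theorem aa (a : ZMod 2) : a * a = a := by
  revert a
  decide

/-- The form on `v0`-perp. -/
theorem Q_perp (x : V) (hx : x (Sum.inl 0) = x (Sum.inr 0)) : QQ x = x (Sum.inl 0) + QQ (em (pr x)) := by
  rw [Q_apply, Q_apply, Fin.sum_univ_succ, Fin.sum_univ_succ (n := 3)]
  simp only [em_inl0, em_inr0, em_inls, em_inrs, pr_inl, pr_inr, mul_zero, zero_add]
  rw [← hx, aa]

/-! ### The action -/

theorem ac_Q (r : OO) (x : V) : QQ (ac r x) = QQ x := (mem_isometryGroup_iff _ _).1 r.2 x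

theorem ac_polar (r : OO) (x y : V) : polar QQ (ac r x) (ac r y) = polar QQ x y := by
  simp only [polar, ← ac_add, ac_Q]

theorem ac_smul (r : OO) (c : ZMod 2) (x : V) : ac r (c • x) = c • ac r x := Matrix.mulVec_smul _ _ _

/-- The action of a reflection. -/
theorem ac_rv_gen (a : ℕ) (x : V) : ac (rv a) x = x - ((QQ (dv a))⁻¹ * polar QQ x (dv a)) • dv a := by
  have h : ac (rv a) x = ((toIso QQ (rv a) : isoGroup QQ) : V ≃ₗ[ZMod 2] V) x := rfl
  rw [h, toIso_rv, refl_apply]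

/-- The stabilizer of `v0`. -/
def Stab : Subgroup OO where
  carrier := {r | ac r v0 = v0}
  mul_mem' {a b} ha hb := by
    show ac (a * b) v0 = v0
    rw [ac_mul, hb, ha]
  one_mem' := ac_one v0
  inv_mem' {a} ha := by
    show ac a⁻¹ v0 = v0
    have := ac_mul a⁻¹ a v0
    rw [inv_mul_cancel, ac_one, ha] at this
    exact this.symm

theorem mem_Stab {r : OO} : r ∈ Stab ↔ ac r v0 = v0 := Iff.rfl

theorem perp_ac {g : OO} (hg : g ∈ Stab) {x : V} (hx : x (Sum.inl 0) = x (Sum.inr 0)) :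
    ac g x (Sum.inl 0) = ac g x (Sum.inr 0) := by
  rw [← perp_iff] at hx ⊢
  rw [← mem_Stab.1 hg, ac_polar]
  exact hx

/-- The matrix on the section of `v0`-perp. -/
def piMat (r : OO) : Matrix (Fin 3 ⊕ Fin 3) (Fin 3 ⊕ Fin 3) (ZMod 2) :=
  ((r : GL (Fin 4 ⊕ Fin 4) (ZMod 2)) : Matrix (Fin 4 ⊕ Fin 4) (Fin 4 ⊕ Fin 4) (ZMod 2)).submatrix lf lf

theorem piMat_mulVec (r : OO) (w : W) : piMat r *ᵥ w = pr (ac r (em w)) := by
  ext i
  simp [piMat, ac, pr, Matrix.mulVec, dotProduct, Fintype.sum_sum_type, lf, Fin.sum_univ_succ (n := 3)]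

theorem piMat_mul {g h : OO} (hg : g ∈ Stab) (hh : h ∈ Stab) : piMat (g * h) = piMat g * piMat h := by
  apply Matrix.ext_iff_mulVec.2
  intro w
  rw [← Matrix.mulVec_mulVec, piMat_mulVec, piMat_mulVec, piMat_mulVec, ac_mul]
  have hy := perp_ac hh (em_perp w)
  conv_lhs => rw [decomp _ hy, ac_add, ac_smul, mem_Stab.1 hg]
  rw [pr_add, pr_smul, pr_v0, smul_zero, add_zero]

theorem piMat_mem {g : OO} (hg : g ∈ Stab) : piMat g ∈ Matrix.symplecticGroup (Fin 3) (ZMod 2) := by
  rw [mem_symplecticGroup_iff]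
  intro u w
  rw [piMat_mulVec, piMat_mulVec, symp_pr _ _ (perp_ac hg (em_perp u)) (perp_ac hg (em_perp w)), ac_polar,
    ← symp_pr _ _ (em_perp u) (em_perp w), pr_em, pr_em]

/-- The homomorphism to the symplectic group. -/
noncomputable def piHom : Stab →* Matrix.symplecticGroup (Fin 3) (ZMod 2) :=
  MonoidHom.mk' (fun g => ⟨piMat g.1, piMat_mem g.2⟩) (fun a b => Subtype.ext (piMat_mul a.2 b.2))

theorem piHom_mulVec (g : Stab) (w : W) : (piHom g).1 *ᵥ w = pr (ac g.1 (em w)) := piMat_mulVec _ _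

/-! ### The kernel -/

theorem fix_of {r : OO} (h0 : ac r v0 = v0) (h1 : ∀ w, ac r (em w) = em w) (h2 : ac r (dv 1) = dv 1) : r = 1 := by
  apply eq_one_of_fix
  intro x _ _
  generalize dv x = y
  have e : y = em (pr y) + y (Sum.inr 0) • v0 + (y (Sum.inl 0) + y (Sum.inr 0)) • dv 1 := by
    have d1 : dv 1 (Sum.inl 0) = 1 := by decide +kernel
    have d2 : dv 1 (Sum.inr 0) = 0 := by decide +kernel
    have d3 : ∀ j : Fin 3, dv 1 (Sum.inl j.succ) = 0 := by decide +kernel
    have d4 : ∀ j : Fin 3, dv 1 (Sum.inr j.succ) = 0 := by decide +kernel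
    ext (i | i)
    · refine Fin.cases ?_ (fun j => ?_) i
      · simp [v0_l0, d1]
        linear_combination (-(y (Sum.inr 0))) * two0
      · simp [v0_ls, d3]
    · refine Fin.cases ?_ (fun j => ?_) i
      · simp [v0_r0, d2]
      · simp [v0_rs, d4]
  rw [e, ac_add, ac_add, ac_smul, ac_smul, h0, h1, h2]

theorem pol_e0 : polar QQ (dv 1) v0 = 1 := by
  rw [pol_v0]
  decide +kernel

theorem pol_e0_em (w : W) : polar QQ (dv 1) (em w) = 0 := by
  have d1 : dv 1 (Sum.inl 0) = 1 := by decide +kernel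
  have d2 : dv 1 (Sum.inr 0) = 0 := by decide +kernel
  have d3 : ∀ j : Fin 3, dv 1 (Sum.inl j.succ) = 0 := by decide +kernel
  have d4 : ∀ j : Fin 3, dv 1 (Sum.inr j.succ) = 0 := by decide +kernel
  rw [pol, Fin.sum_univ_succ]
  simp [d3, d4]

/-- The kernel of the homomorphism. -/
theorem ker_pi {g : OO} (hg : g ∈ Stab) (h : ∀ w, pr (ac g (em w)) = w) : g = 1 ∨ g = rv 17 := by
  have h1 : ∀ w, ac g (em w) = em w := by
    intro w
    have hy := perp_ac hg (em_perp w)
    have hq := Q_perp _ hy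
    rw [ac_Q, h w] at hq
    have hc : ac g (em w) (Sum.inl 0) = 0 := by
      have : QQ (em w) + ac g (em w) (Sum.inl 0) = QQ (em w) := by
        conv_rhs => rw [hq]
        ring
      simpa using this
    have := decomp _ hy
    rw [h w, hc, zero_smul, add_zero] at this
    exact this
  set u := ac g (dv 1) with hu
  have h2 : polar QQ u v0 = 1 := by
    rw [← mem_Stab.1 hg, hu, ac_polar]
    exact pol_e0
  have h3 : ∀ w, polar QQ u (em w) = 0 := by
    intro w
    rw [← h1 w, hu, ac_polar, pol_e0_em]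
  have h4 : ∀ j : Fin 3, u (Sum.inl j.succ) = 0 := by
    intro j
    have := h3 (Pi.single (Sum.inr j) 1)
    rw [pol, Fin.sum_univ_succ] at this
    simpa [Fin.succ_inj, Pi.single_apply, Finset.sum_ite_eq] using this
  have h5 : ∀ j : Fin 3, u (Sum.inr j.succ) = 0 := by
    intro j
    have := h3 (Pi.single (Sum.inl j) 1)
    rw [pol, Fin.sum_univ_succ] at this
    simpa [Fin.succ_inj, Pi.single_apply, Finset.sum_ite_eq] using this
  rw [pol_v0] at h2
  have hcase : (u (Sum.inl 0) = 1 ∧ u (Sum.inr 0) = 0) ∨ (u (Sum.inl 0) = 0 ∧ u (Sum.inr 0) = 1) := by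
    generalize u (Sum.inl 0) = a at h2
    generalize u (Sum.inr 0) = b at h2
    revert a b
    decide
  rcases hcase with ⟨e1, e2⟩ | ⟨e1, e2⟩
  · left
    apply fix_of (mem_Stab.1 hg) h1
    have d1 : dv 1 (Sum.inl 0) = 1 := by decide +kernel
    have d2 : dv 1 (Sum.inr 0) = 0 := by decide +kernel
    have d3 : ∀ j : Fin 3, dv 1 (Sum.inl j.succ) = 0 := by decide +kernel
    have d4 : ∀ j : Fin 3, dv 1 (Sum.inr j.succ) = 0 := by decide +kernel
    rw [← hu]
    ext (i | i)
    · refine Fin.cases ?_ (fun j => ?_) i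
      · rw [e1, d1]
      · rw [h4, d3]
    · refine Fin.cases ?_ (fun j => ?_) i
      · rw [e2, d2]
      · rw [h5, d4]
  · right
    have hu16 : u = dv 16 := by
      have d1 : dv 16 (Sum.inl 0) = 0 := by decide +kernel
      have d2 : dv 16 (Sum.inr 0) = 1 := by decide +kernel
      have d3 : ∀ j : Fin 3, dv 16 (Sum.inl j.succ) = 0 := by decide +kernel
      have d4 : ∀ j : Fin 3, dv 16 (Sum.inr j.succ) = 0 := by decide +kernel
      ext (i | i)
      · refine Fin.cases ?_ (fun j => ?_) i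
        · rw [e1, d1]
        · rw [h4, d3]
      · refine Fin.cases ?_ (fun j => ?_) i
        · rw [e2, d2]
        · rw [h5, d4]
    have hr : rv 17 * g = 1 := by
      apply fix_of
      · rw [ac_mul, mem_Stab.1 hg, ac_rv hv17.1 hv17.2 (by decide)]
        congr 1
      · intro w
        rw [ac_mul, h1, ac_rv_gen, (perp_iff (em w)).2 (em_perp w)]
        simp
      · rw [ac_mul, ← hu, hu16, ac_rv hv17.1 hv17.2 (by decide)]
        congr 1
    have : g = (rv 17)⁻¹ := eq_inv_of_mul_eq_one_right hr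
    rw [this, rv_inv]

/-! ### Surjectivity -/

theorem rv_perp {a : ℕ} (h : dv a (Sum.inl 0) = dv a (Sum.inr 0)) : rv a ∈ Stab := by
  rw [mem_Stab, ac_rv_gen]
  have h1 : polar QQ v0 (dv a) = 0 := by
    rw [polar_comm, perp_iff]
    exact h
  rw [h1]
  simp

theorem exists_vec (w : W) : ∃ a, a < 256 ∧ qt a = true ∧ dv a (Sum.inl 0) = dv a (Sum.inr 0) ∧ pr (dv a) = w := by
  obtain ⟨a, ha, hax⟩ := dv_surj (em w + (QQ (em w) + 1) • v0)
  have h1 : pr (dv a) = w := by
    rw [hax, pr_add, pr_smul, pr_v0, pr_em, smul_zero, add_zero]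
  have h2 : dv a (Sum.inl 0) = dv a (Sum.inr 0) := by
    rw [hax]
    simp [v0_l0, v0_r0]
  refine ⟨a, ha, ?_, h2, h1⟩
  apply qt_of_Q ha
  have h3 : dv a (Sum.inl 0) = QQ (em w) + 1 := by
    rw [hax]
    simp [v0_l0]
  rw [Q_perp _ h2, h1, h3]
  intro h
  have : (2 : ZMod 2) * QQ (em w) + 1 = 0 := by
    linear_combination h
  rw [two0, zero_mul, zero_add] at this
  exact one_ne_zero this

theorem piHom_rv {a : ℕ} (ha : a < 256) (qa : qt a = true) (h : dv a (Sum.inl 0) = dv a (Sum.inr 0)) :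
    (piHom ⟨rv a, rv_perp h⟩).1 = Cfsg.sympTransvection 3 (pr (dv a)) 1 := by
  apply Matrix.ext_iff_mulVec.2
  intro w
  have hs : sympForm 3 (ZMod 2) w (pr (dv a)) = polar QQ (em w) (dv a) := by
    have := symp_pr (em w) (dv a) (em_perp w) h
    rwa [pr_em] at this
  rw [piHom_mulVec, sympTransvection_mulVec, ac_rv_gen, hs, Q_dv a ha, if_pos qa, inv_one, one_mul]
  funext i
  show pr (em w) i - polar QQ (em w) (dv a) * pr (dv a) i = w i + polar QQ (em w) (dv a) * pr (dv a) i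
  rw [pr_em]
  exact CharTwo.sub_eq_add _ _

theorem piHom_surj : Function.Surjective piHom := by
  rw [← MonoidHom.range_eq_top, eq_top_iff, ← closure_transvectionSet (m := 3) (F := ZMod 2), Subgroup.closure_le]
  rintro A ⟨w, c, hA⟩
  have hc : ∀ c : ZMod 2, c = 0 ∨ c = 1 := by decide
  rcases hc c with rfl | rfl
  · have : A = 1 := by
      apply Subtype.ext
      rw [hA]
      apply Matrix.ext_iff_mulVec.2
      intro x
      rw [sympTransvection_mulVec]
      simp
    rw [this]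
    exact one_mem _
  · obtain ⟨a, ha, qa, h1, h2⟩ := exists_vec w
    refine ⟨⟨rv a, rv_perp h1⟩, Subtype.ext ?_⟩
    rw [piHom_rv ha qa h1, h2, hA]

/-! ### The splitting -/

theorem exists_chi : ∃ χ : OO →* Multiplicative (ZMod 2), ∀ r, χ r = 1 ↔ r ∈ Om := by
  have hi : Om.index = 2 := index_Omega_char_two QQ (by simp) (plusForm_nondeg 4) hcardι
  have h1 : Nat.card (OO ⧸ Om) = 2 := hi
  have h2 : Nat.card (Multiplicative (ZMod 2)) = 2 := by
    rw [Nat.card_congr Multiplicative.toAdd]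
    simp
  haveI : Fact (Nat.Prime 2) := ⟨Nat.prime_two⟩
  let e : OO ⧸ Om ≃* Multiplicative (ZMod 2) := mulEquivOfPrimeCardEq (p := 2) h1 h2
  refine ⟨e.toMonoidHom.comp (QuotientGroup.mk' Om), fun r => ?_⟩
  show e (r : OO ⧸ Om) = 1 ↔ _
  rw [map_eq_one_iff e e.injective, QuotientGroup.eq_one_iff]

/-- The stabilizer of `v0` is `2 × Sp₆(2)`. -/
theorem stab_iso : Nonempty (Stab ≃* Multiplicative (ZMod 2) × Matrix.symplecticGroup (Fin 3) (ZMod 2)) := by
  obtain ⟨χ, hχ⟩ := exists_chi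
  let F : Stab →* Multiplicative (ZMod 2) × Matrix.symplecticGroup (Fin 3) (ZMod 2) := (χ.comp Stab.subtype).prod piHom
  have hs : rv 17 ∈ Stab := rv_perp (v0_l0.trans v0_r0.symm)
  have hinj : Function.Injective F := by
    rw [injective_iff_map_eq_one]
    rintro ⟨g, hg⟩ h
    have h1 : χ g = 1 := congrArg Prod.fst h
    have h2 : piHom ⟨g, hg⟩ = 1 := congrArg Prod.snd h
    have h3 : g ∈ Om := (hχ g).1 h1
    have h4 : ∀ w, pr (ac g (em w)) = w := by
      intro w
      rw [← piHom_mulVec ⟨g, hg⟩, h2]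
      simp
    rcases ker_pi hg h4 with rfl | rfl
    · rfl
    · exact absurd h3 (rv_not hv17.1 hv17.2)
  have hsurj : Function.Surjective F := by
    rintro ⟨ε, A⟩
    obtain ⟨h, hh⟩ := piHom_surj A
    have hs1 : piHom ⟨rv 17, hs⟩ = 1 := by
      apply Subtype.ext
      apply Matrix.ext_iff_mulVec.2
      intro w
      rw [piHom_mulVec, ac_rv_gen, (perp_iff (em w)).2 (em_perp w)]
      simp
    have hs2 : χ (rv 17) ≠ 1 := fun h => rv_not hv17.1 hv17.2 ((hχ _).1 h)
    have dec : ∀ x y z : Multiplicative (ZMod 2), x ≠ y → z ≠ 1 → x * z = y := by decide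
    by_cases hc : χ h.1 = ε
    · exact ⟨h, Prod.ext hc hh⟩
    · refine ⟨h * ⟨rv 17, hs⟩, Prod.ext ?_ ?_⟩
      · show χ (h.1 * rv 17) = ε
        rw [map_mul]
        exact dec _ _ _ hc hs2
      · show piHom (h * ⟨rv 17, hs⟩) = A
        rw [map_mul, hs1, mul_one, hh]
  exact ⟨MulEquiv.ofBijective F ⟨hinj, hsurj⟩⟩

/-! ### Transfer -/

theorem fix_iff (r : OO) : phi (Phi r) (pB 17) = pB 17 ↔ ac r v0 = v0 := by
  obtain ⟨y, hy, qy, e1, e2⟩ := Rl_Phi r 17 hv17.1 hv17.2
  constructor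
  · intro h
    rw [e2] at h
    have := pB_inj hy hv17.1 qy hv17.2 h
    subst this
    exact e1
  · intro h
    have y17 := dv_inj hv17.1 hy (h.symm.trans e1)
    rw [e2, ← y17]

theorem map_Stab : (I8 ⊓ Subgroup.centralizer ({c0} : Set Γ)) = Stab.map Phi := by
  ext g
  constructor
  · rintro ⟨hg, hc⟩
    have h1 : phi g (pB 17) = pB 17 :=
      (comm_dp_iff g _).1 ((Subgroup.mem_centralizer_iff.1 hc) c0 rfl).symm
    obtain ⟨r, rfl⟩ := stab_le_I1 hg h1
    exact ⟨r, (fix_iff r).1 h1, rfl⟩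
  · rintro ⟨r, hr, rfl⟩
    have h3 : Phi r ∈ Subgroup.centralizer ({c0} : Set Γ) := by
      rw [Subgroup.mem_centralizer_iff]
      rintro _ rfl
      exact ((comm_dp_iff _ _).2 ((fix_iff r).2 hr)).symm
    exact ⟨I1_le ⟨r, rfl⟩, h3⟩

end StabAux

open StabAux in
/-- The centralizer of `c0` in `I8` is `2 × Sp₆(2)`. -/
theorem stab_c0_iso : Nonempty (↥(I8 ⊓ Subgroup.centralizer ({c0} : Set Γ)) ≃* Multiplicative (ZMod 2) × Cfsg.PSp 3 (ZMod 2)) := by
  obtain ⟨e⟩ := stab_iso
  rw [map_Stab]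
  let e2 : Cfsg.PSp 3 (ZMod 2) ≃* Matrix.symplecticGroup (Fin 3) (ZMod 2) :=
    (QuotientGroup.quotientMulEquivOfEq Cfsg.Agent.Lib.Schur.Sp62.Main.center_Sp).trans QuotientGroup.quotientBot
  exact ⟨(Subgroup.equivMapOfInjective Stab Phi Phi_inj).symm.trans (e.trans (MulEquiv.prodCongr (MulEquiv.refl _) e2.symm))⟩

end Cfsg.Agent.Lib.ThreeT.F22.O8.Out
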