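import Cfsg.Agent.Lib.ThreeT.F22.O8.Out.Fix

/-!
# The fixed points of the two twisted involutions
-/

set_option autoImplicit false
set_option linter.style.haveILetI false
set_option linter.unusedSectionVars false
set_option linter.unusedVariables false
set_option linter.style.longLine false
set_option linter.unnecessarySimpa false
set_option maxRecDepth 1000000
set_option maxHeartbeats 0

namespace Cfsg.Agent.Lib.ThreeT.F22.O8.Out

open Cfsg Cfsg.Agent.Lib.TC.Core Cfsg.Agent.Lib.TC.Pres Cfsg.Agent.Lib.TC.Chain Cfsg.Agent.Lib.TC.Chain.PermLev Cfsg.Agent.Lib.TC.G.Fi22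
  Cfsg.Agent.Lib.TC.D.Fi22b.Tab Cfsg.Agent.Lib.TC.D.Fi22b.Ok
  Cfsg.Agent.Lib.ThreeT.F22.Sift Cfsg.Agent.Lib.ThreeT.F22.Act Cfsg.Agent.Lib.ThreeT.F22.PLoc
  Cfsg.Agent.Lib.ThreeT.F22.Cnt Cfsg.Agent.Lib.ThreeT.F22.DPts Cfsg.Agent.Lib.ThreeT.F22.D5
  Cfsg.Agent.Lib.ThreeT.F22.M5 Cfsg.Agent.Lib.ThreeT.F22.O8

/-- The points fixed by the first twisted involution. -/
def F64 : List Nat := [2,3,7,9,10,11,13,14,17,22,27,33,36,38,39,40,41,42,47,54,57,59,63,79,114,138,144,154,171,202,402,512,855,962,1031,1142,1254,1299,1383,1498,1570,1571,1609,1739,1769,1781,1917,1946,1993,1994,2203,2211,2239,2352,2454,2461,2493,2716,2721,2724,2954,2963,2969,3146]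

/-- The points fixed by the second twisted involution. -/
def F72N : List Nat := [3,10,11,13,14,22,38,39,41,42,47,57,63,79,114,138,154,202,356,367,452,504,512,519,562,580,593,723,726,730,739,751,802,835,882,901,912,918,962,993,1031,1049,1070,1108,1178,1250,1277,1285,1299,1354,1410,1440,1480,1491,1546,1570,1601,1609,1641,1745,1769,1831,1917,1994,2001,2048,2203,2247,2716,2724,2963,2969]

theorem hF64 : (List.range 3510).all (fun p => Nat.beq (sN (pt.val (nw 17) p)) p == F64.contains p) = true := by decide +kernel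

theorem hF72 : (List.range 3510).all (fun p => Nat.beq (sN (pt.val (nw 34 ++ nw 17) p)) p == F72N.contains p) = true := by decide +kernel

/-- All points fixed by the first one commute with `c0`. -/
theorem hF64c : F64.all (fun p => Nat.beq (pt.val (nw 17) p) p) = true := by decide +kernel

/-- Only `pB 17` is central among them. -/
theorem hF64u : F64.all (fun q => Nat.beq q (bt 17) || F64.any (fun p => !(Nat.beq (pt.val (tw (ptw q)) p) p))) = true := by decide +kernel

theorem hn17' : ∀ z ∈ nw 17, z < pt.k := hn17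

theorem hn34' : ∀ z ∈ nw 34, z < pt.k := nw_lt (by decide) (by decide +kernel)

theorem c0_eq : c0 = wv (nw 17) := (wv_nw (by decide) (by decide +kernel)).symm

/-- The second member. -/
noncomputable def b0 : Γ := dp (pB 34)

theorem b0_eq : c0 * b0 = wv (nw 34 ++ nw 17) := by
  rw [wv_append, wv_nw (by decide) (by decide +kernel), wv_nw (by decide) (by decide +kernel)]
  rfl

theorem phi_c0 (p : Fin pt.n) : (phi c0 p).1 = pt.val (nw 17) p.1 := by
  rw [c0_eq]
  exact phi_val hn17' p

theorem phi_c0b0 (p : Fin pt.n) : (phi (c0 * b0) p).1 = pt.val (nw 34 ++ nw 17) p.1 := by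
  rw [b0_eq]
  apply phi_val
  intro z hz
  rcases List.mem_append.1 hz with hz | hz
  · exact hn34' z hz
  · exact hn17' z hz

/-- The automorphism on the class. -/
theorem twist_dp (c : Γ) (p : Fin pt.n) : (sig * MulAut.conj c) (dp p) = dp (sP (phi c p)) := by
  show sig (c * dp p * c⁻¹) = _
  rw [conj_dp, sig_dp]

/-- Fixed elements permute fixed points. -/
theorem twist_phi {c g : Γ} (hg : (sig * MulAut.conj c) g = g) {p : Fin pt.n} (hp : sP (phi c p) = p) : sP (phi c (phi g p)) = phi g p := by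
  apply dp_inj
  rw [← twist_dp, ← conj_dp, map_mul, map_mul, map_inv, hg, twist_dp, hp]

theorem mem64 {p : Fin pt.n} : sP (phi c0 p) = p ↔ p.1 ∈ F64 := by
  have h := List.all_eq_true.1 hF64 p.1 (List.mem_range.2 p.2)
  have h1 : (Nat.beq (sN (pt.val (nw 17) p.1)) p.1) = F64.contains p.1 := by simpa using h
  rw [← List.contains_iff_mem, ← h1]
  constructor
  · intro h2
    have h3 : sN (pt.val (nw 17) p.1) = p.1 := by
      rw [← phi_c0]
      exact congrArg Fin.val h2
    rw [h3]
    simp
  · intro h2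
    have h3 := Nat.eq_of_beq_eq_true h2
    apply Fin.ext
    rw [sP_val, phi_c0]
    exact h3

theorem mem72 {p : Fin pt.n} : sP (phi (c0 * b0) p) = p ↔ p.1 ∈ F72N := by
  have h := List.all_eq_true.1 hF72 p.1 (List.mem_range.2 p.2)
  have h1 : (Nat.beq (sN (pt.val (nw 34 ++ nw 17) p.1)) p.1) = F72N.contains p.1 := by simpa using h
  rw [← List.contains_iff_mem, ← h1]
  constructor
  · intro h2
    have h3 : sN (pt.val (nw 34 ++ nw 17) p.1) = p.1 := by
      rw [← phi_c0b0]
      exact congrArg Fin.val h2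
    rw [h3]
    simp
  · intro h2
    have h3 := Nat.eq_of_beq_eq_true h2
    apply Fin.ext
    rw [sP_val, phi_c0b0]
    exact h3

theorem c0_comm (p : Fin pt.n) (hp : p.1 ∈ F64) : phi c0 p = p := by
  apply Fin.ext
  rw [phi_c0]
  exact Nat.eq_of_beq_eq_true (List.all_eq_true.1 hF64c p.1 hp)

theorem pB17_val : (pB 17).1 = bt 17 := pB_val (by decide) (by decide +kernel)

theorem pB17_mem : (pB 17).1 ∈ F64 := by
  rw [pB17_val]
  decide +kernel

theorem uniq64 {q : Fin pt.n} (hq : q.1 ∈ F64) (h : ∀ p : Fin pt.n, p.1 ∈ F64 → phi (dp q) p = p) : q = pB 17 := by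
  have h1 := List.all_eq_true.1 hF64u q.1 hq
  rw [Bool.or_eq_true] at h1
  rcases h1 with h1 | h1
  · apply Fin.ext
    rw [pB17_val]
    exact Nat.eq_of_beq_eq_true h1
  · exfalso
    obtain ⟨p, hp, h2⟩ := List.any_eq_true.1 h1
    have hlt : p < 3510 := by
      have : ∀ x ∈ F64, x < 3510 := by decide +kernel
      exact this p hp
    have h3 := h ⟨p, hlt⟩ hp
    have h4 : pt.val (tw (ptw q.1)) p = p := by
      have h5 := phi_val (w := tw (ptw q.1)) (by
        intro z hz
        simp only [tw, List.mem_append, List.mem_reverse, List.mem_cons, List.not_mem_nil, or_false] at hz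
        rcases hz with (hz | rfl) | hz
        · exact ptw_lt q.2 z hz
        · decide
        · exact ptw_lt q.2 z hz) ⟨p, hlt⟩
      rw [wv_ptw_dp, h3] at h5
      exact h5.symm
    rw [h4] at h2
    simp at h2

/-- The fixed elements of the first twisted involution. -/
theorem fix_tau (g : Γ) : (sig * MulAut.conj c0) g = g ↔ g ∈ I8 ⊓ Subgroup.centralizer ({c0} : Set Γ) := by
  constructor
  · intro hg
    -- the inverse is also fixed
    have hg' : (sig * MulAut.conj c0) g⁻¹ = g⁻¹ := by rw [map_inv, hg]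
    have hq : (phi g (pB 17)).1 ∈ F64 := by
      apply mem64.1
      apply twist_phi hg
      exact mem64.2 pB17_mem
    have hq2 : phi g (pB 17) = pB 17 := by
      apply uniq64 hq
      intro p hp
      have h1 : (phi g⁻¹ p).1 ∈ F64 := mem64.1 (twist_phi hg' (mem64.2 hp))
      have h2 := c0_comm _ h1
      have h3 := phi_comm_conj g (p := pB 17) (q := phi g⁻¹ p) h2
      have e : phi g (phi g⁻¹ p) = p := by
        rw [← Equiv.Perm.mul_apply, ← map_mul, mul_inv_cancel, map_one, Equiv.Perm.one_apply]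
      rwa [e] at h3
    have hc : g * c0 = c0 * g := by
      have := (comm_dp_iff g (pB 17)).2 hq2
      exact this
    have h4 : sig g = g := by
      have h5 : (sig * MulAut.conj c0) g = sig (c0 * g * c0⁻¹) := rfl
      rw [h5, ← hc, mul_inv_cancel_right] at hg
      exact hg
    refine ⟨(sig_fix_iff g).1 h4, Subgroup.mem_centralizer_iff.2 ?_⟩
    intro y hy
    rw [Set.mem_singleton_iff.1 hy]
    exact hc.symm
  · rintro ⟨h1, h2⟩
    have h3 : sig g = g := (sig_fix_iff g).2 h1
    have hc : c0 * g = g * c0 := Subgroup.mem_centralizer_iff.1 h2 c0 rfl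
    show sig (c0 * g * c0⁻¹) = g
    rw [hc, mul_inv_cancel_right, h3]

/-- The fixed subgroup of the second twisted involution. -/
noncomputable def Csab : Subgroup Γ := (sig * MulAut.conj (c0 * b0)).toMonoidHom.eqLocus (MonoidHom.id Γ)

theorem mem_Csab {g : Γ} : g ∈ Csab ↔ (sig * MulAut.conj (c0 * b0)) g = g := Iff.rfl

theorem Csab_pts {g : Γ} (hg : g ∈ Csab) {p : Fin pt.n} (hp : p.1 ∈ F72N) : (phi g p).1 ∈ F72N :=
  mem72.1 (twist_phi hg (mem72.2 hp))

theorem pts_Csab {p : Fin pt.n} (hp : p.1 ∈ F72N) : dp p ∈ Csab := by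
  apply mem_Csab.2
  rw [twist_dp, mem72.2 hp]

end Cfsg.Agent.Lib.ThreeT.F22.O8.Out
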